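import Cfsg.Agent.Lib.Classical.MinIndex.Elem

/-!
The linear algebra of the case where each root group meets the subgroup in a hyperplane.
-/

set_option autoImplicit false
set_option linter.unusedSectionVars false
set_option linter.unusedSimpArgs false
set_option linter.style.haveILetI false
set_option linter.unusedVariables false

open Matrix

namespace Cfsg.Agent.Lib.Classical.MinIndex

open Cfsg.Agent.Lib.Classical.TransvRoot Cfsg.Agent.Lib.Classical.TransvSL

variable {k : Type*} [Field k] {N : ℕ}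

/-- The vectors killed by a space of covectors. -/
def killed (W : Submodule k (Fin N → k)) : Submodule k (Fin N → k) where
  carrier := {x | ∀ φ ∈ W, φ ⬝ᵥ x = 0}
  add_mem' := by
    intro a b ha hb φ hφ
    change φ ⬝ᵥ (a + b) = 0
    rw [dotProduct_add, ha φ hφ, hb φ hφ, add_zero]
  zero_mem' := fun φ _ => dotProduct_zero _
  smul_mem' := by
    intro c x hx φ hφ
    change φ ⬝ᵥ (c • x) = 0
    rw [dotProduct_smul, hx φ hφ, smul_zero]

/-- A space of codimension at least two kills a vector off a given line. -/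
lemma exists_killed (W : Submodule k (Fin N → k)) (hW : Module.finrank k W + 2 ≤ N) (v : Fin N → k) :
    ∃ w, (∀ φ ∈ W, φ ⬝ᵥ w = 0) ∧ ∀ t : k, w ≠ t • v := by
  by_contra hcon
  push Not at hcon
  -- all the killed vectors are multiples of `v`
  have hle : killed W ≤ Submodule.span k {v} := by
    intro w hw
    obtain ⟨t, ht⟩ := hcon w hw
    rw [ht]
    exact Submodule.smul_mem _ _ (Submodule.mem_span_singleton_self v)
  have h1 : Module.finrank k (killed W) ≤ 1 :=
    (Submodule.finrank_mono hle).trans (by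
      by_cases hv : v = 0
      · subst hv
        rw [Submodule.span_zero_singleton, finrank_bot]
        exact zero_le_one
      · rw [finrank_span_singleton hv])
  let f : (Fin N → k) →ₗ[k] Module.Dual k W :=
    { toFun := fun x =>
        { toFun := fun φ => φ.1 ⬝ᵥ x
          map_add' := fun a b => by simp [add_dotProduct]
          map_smul' := fun c a => by simp [smul_dotProduct] }
      map_add' := fun a b => by
        ext φ
        simp [dotProduct_add]
      map_smul' := fun c a => by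
        ext φ
        simp [dotProduct_smul] }
  have hker : LinearMap.ker f = killed W := by
    ext x
    constructor
    · intro hx φ hφ
      have h2 := congrArg (fun g : Module.Dual k W => g ⟨φ, hφ⟩) (LinearMap.mem_ker.1 hx)
      exact h2
    · intro hx
      rw [LinearMap.mem_ker]
      ext φ
      exact hx φ.1 φ.2
  have h2 := LinearMap.finrank_range_add_finrank_ker f
  rw [hker] at h2
  have h3 : Module.finrank k (LinearMap.range f) ≤ Module.finrank k W := by
    have := Submodule.finrank_le (LinearMap.range f)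
    rwa [Subspace.dual_finrank_eq] at this
  simp only [Module.finrank_fin_fun] at h2
  omega

lemma eq_inf_of_kill (W : Submodule k (Fin N → k)) {v v' : Fin N → k} (hv : v ≠ 0)
    (h1 : ∀ φ ∈ W, φ ⬝ᵥ v = 0) (h2 : ∀ φ ∈ W, φ ⬝ᵥ v' = 0) (hW : Module.finrank k W + 2 = N)
    (hsep : ∀ t : k, v' ≠ t • v) : W = Ann k v ⊓ Ann k v' := by
  have hle : W ≤ Ann k v ⊓ Ann k v' := fun φ hφ => ⟨h1 φ hφ, h2 φ hφ⟩
  refine Submodule.eq_of_le_of_finrank_le hle ?_
  obtain ⟨ψ, hψ, hψ'⟩ := exists_cov_sep hv hsep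
  have hlt1 : Ann k v ⊓ Ann k v' < Ann k v := by
    refine lt_of_le_of_ne inf_le_left ?_
    intro e1
    have : ψ ∈ Ann k v ⊓ Ann k v' := by
      rw [e1]
      exact hψ
    exact hψ' this.2
  obtain ⟨i, hi⟩ := exists_ne_of_ne_zero hv
  have hlt2 : Ann k v < ⊤ := by
    refine lt_top_iff_ne_top.2 ?_
    intro e1
    have : e i ∈ Ann k v := by
      rw [e1]
      trivial
    have h3 : e i ⬝ᵥ v = 0 := this
    rw [e_dot] at h3
    exact hi h3
  have h3 := Submodule.finrank_lt_finrank_of_lt hlt1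
  have h4 := Submodule.finrank_lt_finrank_of_lt hlt2
  rw [finrank_top] at h4
  simp only [Module.finrank_fin_fun] at h4
  omega

theorem final_B (hN : 3 ≤ N) (W : (Fin N → k) → Submodule k (Fin N → k))
    (h1 : ∀ v, v ≠ 0 → ∀ φ ∈ W v, φ ⬝ᵥ v = 0)
    (h2 : ∀ v, v ≠ 0 → Module.finrank k (W v) + 2 = N)
    (h3 : ∀ v v', v ≠ 0 → v' ≠ 0 → ∀ φ ∈ W v, ∀ ψ ∈ W v', ψ ⬝ᵥ v = 0 → (φ ⬝ᵥ v') • ψ ∈ W v) :
    False := by
  -- the consequence of the commutator
  have hC : ∀ {v v' : Fin N → k}, v ≠ 0 → v' ≠ 0 → ∀ {φ ψ : Fin N → k}, φ ∈ W v → φ ⬝ᵥ v' ≠ 0 →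
      ψ ∈ W v' → ψ ⬝ᵥ v = 0 → ψ ∈ W v := by
    intro v v' hv hv' φ ψ hφ hφ' hψ hψ'
    exact ((W v).smul_mem_iff hφ').1 (h3 v v' hv hv' φ hφ ψ hψ hψ')
  -- the symmetry of the relation
  have hsymm : ∀ {v v' : Fin N → k}, v ≠ 0 → v' ≠ 0 → (∀ ψ ∈ W v', ψ ⬝ᵥ v = 0) →
      ∀ φ ∈ W v, φ ⬝ᵥ v' = 0 := by
    intro v v' hv hv' hR φ hφ
    by_contra hne
    have hle : W v' ≤ W v := fun ψ hψ => hC hv hv' hφ hne hψ (hR ψ hψ)
    have heq : W v' = W v := Submodule.eq_of_le_of_finrank_eq hle (by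
      have := h2 v hv
      have := h2 v' hv'
      omega)
    rw [← heq] at hφ
    exact hne (h1 v' hv' φ hφ)
  -- equality of the spaces
  have hsame : ∀ {v v' : Fin N → k}, v ≠ 0 → v' ≠ 0 → (∀ φ ∈ W v, φ ⬝ᵥ v' = 0) →
      (∀ t : k, v' ≠ t • v) → W v = W v' := by
    intro v v' hv hv' hR hsep
    have hR' : ∀ ψ ∈ W v', ψ ⬝ᵥ v = 0 := hsymm hv' hv hR
    have e1 := eq_inf_of_kill (W v) hv (h1 v hv) hR (h2 v hv) hsep
    have hsep' : ∀ t : k, v ≠ t • v' := by
      intro t ht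
      have ht0 : t ≠ 0 := by
        rintro rfl
        rw [zero_smul] at ht
        exact hv ht
      apply hsep t⁻¹
      rw [ht, smul_smul, inv_mul_cancel₀ ht0, one_smul]
    have e2 := eq_inf_of_kill (W v') hv' (h1 v' hv') hR' (h2 v' hv') hsep'
    rw [e1, e2, inf_comm]
  -- all vectors are killed
  have hall : ∀ {v v' : Fin N → k}, v ≠ 0 → v' ≠ 0 → ∀ φ ∈ W v, φ ⬝ᵥ v' = 0 := by
    intro v v' hv hv' φ hφ
    by_contra hne
    have hex : ∃ ψ ∈ W v', ψ ⬝ᵥ v ≠ 0 := by
      by_contra h4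
      push Not at h4
      exact hne (hsymm hv hv' h4 φ hφ)
    obtain ⟨ψ₁, hψ₁, hψ₁v⟩ := hex
    set ψ₀ := (ψ₁ ⬝ᵥ v)⁻¹ • ψ₁ with hψ₀
    have hψ₀W : ψ₀ ∈ W v' := (W v').smul_mem _ hψ₁
    have hψ₀v : ψ₀ ⬝ᵥ v = 1 := by
      rw [hψ₀, smul_dotProduct, smul_eq_mul, inv_mul_cancel₀ hψ₁v]
    obtain ⟨w, hw, hwv⟩ := exists_killed (W v) (by have := h2 v hv; omega) v
    set x := w - (ψ₀ ⬝ᵥ w) • v with hx
    have hxk : ∀ φ' ∈ W v, φ' ⬝ᵥ x = 0 := by
      intro φ' hφ'
      rw [hx, dotProduct_sub, dotProduct_smul, hw φ' hφ', h1 v hv φ' hφ']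
      simp
    have hψ₀x : ψ₀ ⬝ᵥ x = 0 := by
      rw [hx, dotProduct_sub, dotProduct_smul, hψ₀v]
      simp
    have hxv : ∀ t : k, x ≠ t • v := by
      intro t ht
      have h5 : w = (t + ψ₀ ⬝ᵥ w) • v := by
        rw [add_smul, ← ht, hx]
        abel
      exact hwv _ h5
    have hx0 : x ≠ 0 := by
      intro h
      apply hxv 0
      rw [h, zero_smul]
    have hxk' : ∀ ψ ∈ W v', ψ ⬝ᵥ x = 0 := by
      intro ψ hψ
      set ψ' := ψ - (ψ ⬝ᵥ v) • ψ₀ with hψ'
      have h5 : ψ' ∈ W v' := Submodule.sub_mem _ hψ ((W v').smul_mem _ hψ₀W)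
      have h6 : ψ' ⬝ᵥ v = 0 := by
        rw [hψ', sub_dotProduct, smul_dotProduct, hψ₀v]
        simp
      have h7 : ψ' ∈ W v := hC hv hv' hφ hne h5 h6
      have h8 := hxk ψ' h7
      rw [hψ', sub_dotProduct, smul_dotProduct, hψ₀x] at h8
      simpa using h8
    have hxv' : ∀ t : k, x ≠ t • v' := by
      intro t ht
      have h9 := hxk φ hφ
      rw [ht, dotProduct_smul, smul_eq_mul] at h9
      have ht0 : t = 0 := (mul_eq_zero.1 h9).resolve_right hne
      rw [ht0, zero_smul] at ht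
      exact hx0 ht
    have e1 := hsame hv hx0 hxk hxv
    have e2 := hsame hv' hx0 hxk' hxv'
    have e3 : W v = W v' := e1.trans e2.symm
    rw [e3] at hφ
    exact hne (h1 v' hv' φ hφ)
  -- the conclusion
  have hNpos : 0 < N := by omega
  let i₀ : Fin N := ⟨0, hNpos⟩
  have hv0 : e (k := k) i₀ ≠ 0 := e_ne_zero _
  have hrank : 0 < Module.finrank k (W (e i₀)) := by
    have := h2 _ hv0
    omega
  have hne : W (e i₀) ≠ ⊥ := by
    intro h4
    rw [h4, finrank_bot] at hrank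
    exact lt_irrefl _ hrank
  obtain ⟨φ, hφ, hφ0⟩ := Submodule.exists_mem_ne_zero_of_ne_bot hne
  obtain ⟨i, hi⟩ := exists_ne_of_ne_zero hφ0
  have h5 := hall hv0 (e_ne_zero i) φ hφ
  rw [dot_e] at h5
  exact hi h5

end Cfsg.Agent.Lib.Classical.MinIndex
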