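import Cfsg.Agent.Lib.Classical.MinIndex.Elem

/-!
There is no subgroup of `SL_N(k)` complementing a root group `U_v` and containing no transvection,
except possibly for `N = 4`, `|k| = 2`.
-/

set_option autoImplicit false
set_option linter.unusedSectionVars false
set_option linter.unusedSimpArgs false
set_option linter.style.haveILetI false
set_option linter.unusedVariables false

open Matrix

namespace Cfsg.Agent.Lib.Classical.MinIndex

open Cfsg.Agent.Lib.Classical.TransvRoot Cfsg.Agent.Lib.Classical.TransvSL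

variable {k : Type*} [Field k] {N : ℕ}

/-- A complement to a root group without transvections. -/
structure Compl (H : Subgroup (SpecialLinearGroup (Fin N) k)) (v : Fin N → k) : Prop where
  ex : ∀ x : SpecialLinearGroup (Fin N) k, ∃ φ : Fin N → k, φ ⬝ᵥ v = 0 ∧ tt v φ * x ∈ H
  no : ∀ c φ : Fin N → k, c ≠ 0 → φ ≠ 0 → φ ⬝ᵥ c = 0 → tt c φ ∉ H

namespace Compl

variable {H : Subgroup (SpecialLinearGroup (Fin N) k)} {v : Fin N → k} (C : Compl H v)

/-- The cocycle. -/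
noncomputable def α (x : SpecialLinearGroup (Fin N) k) : Fin N → k := (C.ex x).choose

lemma α_dot (x : SpecialLinearGroup (Fin N) k) : C.α x ⬝ᵥ v = 0 := (C.ex x).choose_spec.1

lemma α_mem (x : SpecialLinearGroup (Fin N) k) : tt v (C.α x) * x ∈ H := (C.ex x).choose_spec.2

include C in
lemma eq_of_mem (hv : v ≠ 0) {φ ψ : Fin N → k} {x : SpecialLinearGroup (Fin N) k} (h : φ ⬝ᵥ v = 0)
    (h' : ψ ⬝ᵥ v = 0) (hm : tt v φ * x ∈ H) (hm' : tt v ψ * x ∈ H) : φ = ψ := by
  by_contra hne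
  have h1 : tt v φ * x * (tt v ψ * x)⁻¹ = tt v (φ + -ψ) := by
    rw [_root_.mul_inv_rev, ← mul_assoc, mul_assoc (tt v φ), mul_inv_cancel, mul_one, tt_inv h',
      tt_mul_same h (by rw [neg_dotProduct, h', neg_zero])]
  have h2 : tt v (φ + -ψ) ∈ H := by
    rw [← h1]
    exact H.mul_mem hm (H.inv_mem hm')
  refine C.no v (φ + -ψ) hv ?_ (by rw [add_dotProduct, neg_dotProduct, h, h']; simp) h2
  intro h3
  apply hne
  exact add_neg_eq_zero.1 h3

lemma uniq (hv : v ≠ 0) {φ : Fin N → k} {x : SpecialLinearGroup (Fin N) k} (h : φ ⬝ᵥ v = 0)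
    (hm : tt v φ * x ∈ H) : φ = C.α x :=
  C.eq_of_mem hv h (C.α_dot x) hm (C.α_mem x)

lemma tt_mul_fix {x : SpecialLinearGroup (Fin N) k} (hx : x.1 *ᵥ v = v) {a : Fin N → k}
    (ha : a ⬝ᵥ v = 0) : x * tt v a = tt v (a ᵥ* (x⁻¹).1) * x := by
  have e := tt_conj ha x
  rw [hx] at e
  rw [← e]
  group

lemma dot_inv_fix {x : SpecialLinearGroup (Fin N) k} (hx : x.1 *ᵥ v = v) {a : Fin N → k}
    (ha : a ⬝ᵥ v = 0) : (a ᵥ* (x⁻¹).1) ⬝ᵥ v = 0 := by
  have := sl_dot_inv (c := v) (φ := a) x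
  rwa [hx, ha] at this

lemma α_mul (hv : v ≠ 0) {x : SpecialLinearGroup (Fin N) k} (hx : x.1 *ᵥ v = v)
    (y : SpecialLinearGroup (Fin N) k) : C.α (x * y) = C.α x + C.α y ᵥ* (x⁻¹).1 := by
  symm
  have hd := dot_inv_fix hx (C.α_dot y)
  refine C.uniq hv (by rw [add_dotProduct, C.α_dot x, hd, add_zero]) ?_
  have h1 := H.mul_mem (C.α_mem x) (C.α_mem y)
  have e1 : tt v (C.α x) * x * (tt v (C.α y) * y) =
      tt v (C.α x + C.α y ᵥ* (x⁻¹).1) * (x * y) := by
    rw [← tt_mul_same (C.α_dot x) hd, mul_assoc, ← mul_assoc x, tt_mul_fix hx (C.α_dot y)]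
    group
  rwa [e1] at h1

lemma α_one (hv : v ≠ 0) : C.α (1 : SpecialLinearGroup (Fin N) k) = 0 := by
  symm
  refine C.uniq hv (zero_dotProduct _) ?_
  rw [tt_zero_right, one_mul]
  exact H.one_mem

lemma tt_fix {w ε : Fin N → k} (hw : ε ⬝ᵥ w = 0) (hε : ε ⬝ᵥ v = 0) : (tt w ε).1 *ᵥ v = v := by
  rw [tt_mulVec hw, hε, zero_smul, add_zero]

/-- The cocycle identity for a transvection. -/
lemma α_tt_mul (hv : v ≠ 0) {w ε : Fin N → k} (hw : ε ⬝ᵥ w = 0) (hε : ε ⬝ᵥ v = 0)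
    (y : SpecialLinearGroup (Fin N) k) :
    C.α (tt w ε * y) = C.α (tt w ε) + (C.α y - (C.α y ⬝ᵥ w) • ε) := by
  rw [C.α_mul hv (tt_fix hw hε), vecMul_tt_inv hw]

lemma tt_comm_of {w ε d ψ : Fin N → k} (hw : ε ⬝ᵥ w = 0) (hd : ψ ⬝ᵥ d = 0) (h1 : ψ ⬝ᵥ w = 0)
    (h2 : ε ⬝ᵥ d = 0) : tt w ε * tt d ψ = tt d ψ * tt w ε := by
  apply tt_ext
  rw [tt_mul_val hw hd, tt_mul_val hd hw, h1, h2, zero_smul, zero_smul, add_zero, add_zero,
    add_right_comm]

/-- The comparison for two commuting transvections fixing `v`. -/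
lemma comm_coord (hv : v ≠ 0) {w ε d ψ : Fin N → k} (hw : ε ⬝ᵥ w = 0) (hε : ε ⬝ᵥ v = 0)
    (hd : ψ ⬝ᵥ d = 0) (hψ : ψ ⬝ᵥ v = 0) (h1 : ψ ⬝ᵥ w = 0) (h2 : ε ⬝ᵥ d = 0) :
    (C.α (tt w ε) ⬝ᵥ d) • ψ = (C.α (tt d ψ) ⬝ᵥ w) • ε := by
  have e1 := C.α_tt_mul hv hw hε (tt d ψ)
  have e2 := C.α_tt_mul hv hd hψ (tt w ε)
  rw [tt_comm_of hw hd h1 h2] at e1
  have e3 := e1.symm.trans e2
  have e4 : (C.α (tt w ε) ⬝ᵥ d) • ψ - (C.α (tt d ψ) ⬝ᵥ w) • ε = 0 := by
    have : C.α (tt w ε) + (C.α (tt d ψ) - (C.α (tt d ψ) ⬝ᵥ w) • ε) -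
        (C.α (tt d ψ) + (C.α (tt w ε) - (C.α (tt w ε) ⬝ᵥ d) • ψ)) = 0 := sub_eq_zero.2 e3
    rw [← this]
    abel
  exact sub_eq_zero.1 e4

/-- A coordinate statement: the covector is a multiple of `e j`. -/
lemma eq_smul_e {a : Fin N → k} {j : Fin N} (h : ∀ i, i ≠ j → a i = 0) : a = a j • e j := by
  funext i
  by_cases hi : i = j
  · subst hi
    simp [e]
  · simp [e, hi, h i hi]

/-- When the cocycle at `tt w ε` is a multiple of `ε`, there is a contradiction. -/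
lemma contra_of_smul (hv : v ≠ 0) {w ε : Fin N → k} (hw : ε ⬝ᵥ w = 0) (hε : ε ⬝ᵥ v = 0)
    (hε0 : ε ≠ 0) {t : k} (ht : C.α (tt w ε) = t • ε) (hne : t • v + w ≠ 0) : False := by
  have h1 := C.α_mem (tt w ε)
  rw [ht, ← tt_smul_move, tt_mul_same_left (by rw [dotProduct_smul, hε, smul_zero]) hw] at h1
  refine C.no _ ε hne hε0 ?_ h1
  rw [dotProduct_add, dotProduct_smul, hε, hw, smul_zero, add_zero]

end Compl

section Cases

variable {H : Subgroup (SpecialLinearGroup (Fin N) k)} {i0 : Fin N} (C : Compl H (e i0))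

lemma z_ne : e (k := k) i0 ≠ 0 := e_ne_zero i0

include C in
/-- The case of at least five dimensions. -/
theorem case5 [Fintype k] {i1 i2 i3 i4 : Fin N} (h01 : i0 ≠ i1) (h02 : i0 ≠ i2) (h03 : i0 ≠ i3)
    (h04 : i0 ≠ i4) (h12 : i1 ≠ i2) (h13 : i1 ≠ i3) (h14 : i1 ≠ i4) (h23 : i2 ≠ i3) (h24 : i2 ≠ i4)
    (h34 : i3 ≠ i4) : False := by
  classical
  have hv : e (k := k) i0 ≠ 0 := e_ne_zero i0
  -- the vectors
  let w : k × k → Fin N → k := fun p => p.1 • e i1 + p.2 • e i2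
  have hw4 : ∀ p, e i4 ⬝ᵥ w p = 0 := by
    intro p
    simp only [w, dotProduct_add, dotProduct_smul, e_dot_e h14.symm, e_dot_e h24.symm, smul_zero,
      add_zero]
  have hw3 : ∀ p, e i3 ⬝ᵥ w p = 0 := by
    intro p
    simp only [w, dotProduct_add, dotProduct_smul, e_dot_e h13.symm, e_dot_e h23.symm, smul_zero,
      add_zero]
  have h40 : e (k := k) i4 ⬝ᵥ e i0 = 0 := e_dot_e h04.symm
  have h30 : e (k := k) i3 ⬝ᵥ e i0 = 0 := e_dot_e h03.symm
  let a : k × k → Fin N → k := fun p => C.α (tt (w p) (e i4))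
  have ha0 : ∀ p, a p i0 = 0 := by
    intro p
    have := C.α_dot (tt (w p) (e i4))
    rwa [dot_e] at this
  -- vanishing of the other coordinates
  have hac : ∀ p (i : Fin N), i ≠ i0 → i ≠ i3 → i ≠ i4 → a p i = 0 := by
    intro p i hi0 hi3 hi4
    have h1 := C.comm_coord hv (hw4 p) h40 (d := e i) (ψ := e i3) (e_dot_e hi3.symm)
      h30 (hw3 p) (e_dot_e hi4.symm)
    have h2 := congrArg (fun f : Fin N → k => f ⬝ᵥ e i3) h1
    simp only [smul_dotProduct, e_dot_e_self, e_dot_e h34.symm] at h2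
    rw [dot_e] at h2
    have h3 : C.α (tt (w p) (e i4)) i = 0 := by simpa using h2
    exact h3
  -- the pigeonhole
  have hcard : Fintype.card k < Fintype.card (k × k) := by
    rw [Fintype.card_prod]
    have h2 : 2 ≤ Fintype.card k := Fintype.one_lt_card
    nlinarith
  obtain ⟨p, p', hne, heq⟩ := Fintype.exists_ne_map_eq_of_card_lt (fun p => a p i3) hcard
  -- the difference
  have hwne : w p - w p' ≠ 0 := by
    intro h
    apply hne
    have h1 := congrFun h i1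
    have h2 := congrFun h i2
    simp [w, e, h12, h12.symm] at h1 h2
    ext
    · exact sub_eq_zero.1 h1
    · exact sub_eq_zero.1 h2
  set w' := w p - w p' with hw'
  have hw'4 : e i4 ⬝ᵥ w' = 0 := by rw [hw', dotProduct_sub, hw4, hw4, sub_zero]
  have e1 : tt (w p) (e i4) = tt w' (e i4) * tt (w p') (e i4) := by
    rw [tt_mul_same_left hw'4 (hw4 p'), hw', sub_add_cancel]
  have e2 := C.α_tt_mul hv hw'4 h40 (tt (w p') (e i4))
  rw [← e1] at e2
  -- the coordinates of the difference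
  have hapw : a p' ⬝ᵥ w' = 0 := by
    rw [hw', dotProduct_sub]
    simp only [w, dotProduct_add, dotProduct_smul, dot_e]
    rw [hac p' i1 h01.symm h13 h14, hac p' i2 h02.symm h23 h24]
    simp
  have e3 : C.α (tt w' (e i4)) = a p - a p' := by
    have : a p = C.α (tt w' (e i4)) + (a p' - (a p' ⬝ᵥ w') • e i4) := e2
    rw [hapw, zero_smul, sub_zero] at this
    rw [this]
    abel
  have e4 : C.α (tt w' (e i4)) = (a p i4 - a p' i4) • e i4 := by
    rw [Compl.eq_smul_e (a := C.α (tt w' (e i4))) (j := i4) ?_]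
    · rw [e3]
      simp [e]
    · intro i hi
      rw [e3]
      by_cases hi0 : i = i0
      · subst hi0
        simp [ha0]
      · by_cases hi3 : i = i3
        · subst hi3
          simp [heq]
        · simp [hac p i hi0 hi3 hi, hac p' i hi0 hi3 hi]
  refine C.contra_of_smul hv hw'4 h40 (e_ne_zero i4) e4 ?_
  intro h0
  apply hwne
  -- the coordinate at `i0` vanishes
  have h1 : w' i0 = 0 := by
    rw [hw']
    simp [w, e, h01, h02]
  have h2 := congrFun h0 i0
  simp only [Pi.add_apply, Pi.smul_apply, smul_eq_mul, h1, add_zero, e, Pi.single_eq_same, mul_one,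
    Pi.zero_apply] at h2
  rw [h2, zero_smul, zero_add] at h0
  exact h0

include C in
/-- The four dimensional case in odd characteristic. -/
theorem case4 (h2 : (2 : k) ≠ 0) {i1 i2 i3 : Fin N} (h01 : i0 ≠ i1) (h02 : i0 ≠ i2) (h03 : i0 ≠ i3)
    (h12 : i1 ≠ i2) (h13 : i1 ≠ i3) (h23 : i2 ≠ i3)
    (hcov : ∀ i, i = i0 ∨ i = i1 ∨ i = i2 ∨ i = i3) : False := by
  have hv : e (k := k) i0 ≠ 0 := e_ne_zero i0
  have d30 : e (k := k) i3 ⬝ᵥ e i0 = 0 := e_dot_e h03.symm
  have d20 : e (k := k) i2 ⬝ᵥ e i0 = 0 := e_dot_e h02.symm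
  have d31 : e (k := k) i3 ⬝ᵥ e i1 = 0 := e_dot_e h13.symm
  have d32 : e (k := k) i3 ⬝ᵥ e i2 = 0 := e_dot_e h23.symm
  have d21 : e (k := k) i2 ⬝ᵥ e i1 = 0 := e_dot_e h12.symm
  set a1 := C.α (tt (e i1) (e i3)) with ha1
  set a2 := C.α (tt (e i2) (e i3)) with ha2
  set ag := C.α (tt (e i1) (e i2)) with hag
  have i22 : e (k := k) i2 i2 = 1 := by simp [e]
  have i33 : e (k := k) i3 i3 = 1 := by simp [e]
  have i32 : e (k := k) i3 i2 = 0 := by simp [e, h23]
  -- first relation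
  have r1 : a1 i1 = 0 := by
    have h1 := C.comm_coord hv d31 d30 d21 d20 d21 d31
    have h3 := congrFun h1 i2
    simp only [Pi.smul_apply, smul_eq_mul, dot_e, i22, i32] at h3
    simpa using h3
  -- second relation
  have r2 : a1 i2 = a2 i1 := by
    have h1 := C.comm_coord hv d31 d30 d32 d30 d31 d32
    have h3 := congrFun h1 i3
    simp only [Pi.smul_apply, smul_eq_mul, dot_e, i33] at h3
    simpa using h3
  -- third relation
  have d3s : e (k := k) i3 ⬝ᵥ (e i2 + e i1) = 0 := by rw [dotProduct_add, d32, d31, add_zero]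
  have e0 : tt (e i1) (e i2) * tt (e i2) (e i3) =
      tt (e i2 + e i1) (e (k := k) i3) * tt (e i1) (e i2) := by
    have e1 := tt_conj d32 (tt (e i1) (e (k := k) i2))
    rw [tt_mulVec d21, vecMul_tt_inv d21, e_dot_e_self, one_smul, d31, zero_smul, sub_zero] at e1
    rw [← e1]
    group
  have e1 := C.α_tt_mul hv d21 d20 (tt (e i2) (e i3))
  have e2 : tt (e i2 + e i1) (e (k := k) i3) = tt (e i1) (e i3) * tt (e i2) (e i3) := by
    rw [tt_mul_same_left d31 d32, add_comm]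
  have e3 := C.α_tt_mul hv d3s d30 (tt (e i1) (e (k := k) i2))
  have e4 := C.α_tt_mul hv d31 d30 (tt (e i2) (e (k := k) i3))
  rw [← e2] at e4
  rw [e0, e3, e4] at e1
  have r3 := congrFun e1 i2
  simp only [Pi.add_apply, Pi.sub_apply, Pi.smul_apply, smul_eq_mul, i22, i32, dot_e,
    mul_zero, sub_zero, mul_one] at r3
  have r4 : a1 i2 = - a2 i1 := by
    have : a1 i2 + (a2 i2 + ag i2) = ag i2 + (a2 i2 - a2 i1) := by
      simpa [add_assoc, ha1, ha2, hag] using r3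
    linear_combination this
  have r5 : a1 i2 = 0 := by
    have h5 : 2 * a1 i2 = 0 := by
      rw [two_mul]
      nth_rewrite 2 [r4]
      rw [r2]
      ring
    exact (mul_eq_zero.1 h5).resolve_left h2
  have r0 : a1 i0 = 0 := by
    have := C.α_dot (tt (e i1) (e i3))
    rwa [dot_e] at this
  have hsm : a1 = a1 i3 • e i3 := Compl.eq_smul_e (j := i3) (by
    intro i hi
    rcases hcov i with rfl | rfl | rfl | rfl
    · exact r0
    · exact r1
    · exact r5
    · exact absurd rfl hi)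
  refine C.contra_of_smul hv d31 d30 (e_ne_zero i3) hsm ?_
  intro h0
  have h5 := congrFun h0 i1
  simp [e, h01, h01.symm] at h5

include C in
/-- The three dimensional case in characteristic two. -/
theorem case3 (h2 : (2 : k) = 0) {i1 i2 : Fin N} (h01 : i0 ≠ i1) (h02 : i0 ≠ i2) (h12 : i1 ≠ i2)
    (hcov : ∀ i, i = i0 ∨ i = i1 ∨ i = i2) : False := by
  have hv : e (k := k) i0 ≠ 0 := e_ne_zero i0
  have d20 : e (k := k) i2 ⬝ᵥ e i0 = 0 := e_dot_e h02.symm
  have d21 : e (k := k) i2 ⬝ᵥ e i1 = 0 := e_dot_e h12.symm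
  set a := C.α (tt (e i1) (e i2)) with ha
  have e1 := C.α_tt_mul hv d21 d20 (tt (e i1) (e (k := k) i2))
  have e2 : tt (e i1) (e (k := k) i2) * tt (e i1) (e i2) = 1 := by
    rw [tt_mul_same_left d21 d21]
    have : e (k := k) i1 + e i1 = 0 := by
      funext j
      simp only [Pi.add_apply, Pi.zero_apply]
      rw [← two_mul, h2, zero_mul]
    rw [this, tt_zero_left]
  rw [e2, C.α_one hv] at e1
  have r1 : a i1 = 0 := by
    have h3 := congrFun e1 i2
    simp only [Pi.add_apply, Pi.sub_apply, Pi.smul_apply, smul_eq_mul, dot_e, Pi.zero_apply] at h3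
    have i22 : e (k := k) i2 i2 = 1 := by simp [e]
    rw [i22, mul_one] at h3
    have : a i2 + (a i2 - a i1) = 0 := h3.symm
    have h4 : a i1 = 2 * a i2 := by linear_combination -this
    rw [h4, h2, zero_mul]
  have r0 : a i0 = 0 := by
    have := C.α_dot (tt (e i1) (e i2))
    rwa [dot_e] at this
  have hsm : a = a i2 • e i2 := Compl.eq_smul_e (j := i2) (by
    intro i hi
    rcases hcov i with rfl | rfl | rfl
    · exact r0
    · exact r1
    · exact absurd rfl hi)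
  refine C.contra_of_smul hv d21 d20 (e_ne_zero i2) hsm ?_
  intro h0
  have h5 := congrFun h0 i1
  simp [e, h01, h01.symm] at h5

end Cases

namespace Compl

variable {H : Subgroup (SpecialLinearGroup (Fin N) k)} {v : Fin N → k} (C : Compl H v)

include C in
/-- An element acting on the root group as a non-trivial scalar and centralizing a transvection. -/
theorem contra_of_tau (hv : v ≠ 0) (τ : SpecialLinearGroup (Fin N) k) {κ : k} (hκ : κ ≠ 1)
    (hτ : ∀ ψ : Fin N → k, ψ ⬝ᵥ v = 0 → τ * tt v ψ * τ⁻¹ = tt v (κ • ψ)) {c₀ φ₀ : Fin N → k}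
    (hc₀ : c₀ ≠ 0) (hφ₀ : φ₀ ≠ 0) (h₀ : φ₀ ⬝ᵥ c₀ = 0) (hcomm : τ * tt c₀ φ₀ = tt c₀ φ₀ * τ) :
    False := by
  set φ := C.α τ with hφ
  have hφd : φ ⬝ᵥ v = 0 := C.α_dot τ
  have hκ' : 1 - κ ≠ 0 := sub_ne_zero.2 hκ.symm
  set φ' := (1 - κ)⁻¹ • φ with hφ'
  have hφ'd : φ' ⬝ᵥ v = 0 := by rw [hφ', smul_dotProduct, hφd, smul_zero]
  have hnd : (-φ') ⬝ᵥ v = 0 := by rw [neg_dotProduct, hφ'd, neg_zero]
  set u := tt v φ' with hu
  set y := tt c₀ φ₀ with hy
  set y' := u * y * u⁻¹ with hy'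
  -- `h` is conjugate to `τ`
  have e1 : tt v φ * τ = u * τ * u⁻¹ := by
    have h1 : τ * u⁻¹ = tt v (κ • (-φ')) * τ := by
      rw [← hτ _ hnd, tt_inv hφ'd]
      group
    rw [mul_assoc, h1, ← mul_assoc, hu, tt_mul_same hφ'd (by rw [smul_dotProduct, hnd, smul_zero])]
    congr 2
    have hc : (1 - κ)⁻¹ - κ * (1 - κ)⁻¹ = 1 := by
      field_simp
    rw [hφ', smul_neg, smul_smul, ← sub_eq_add_neg, ← sub_smul, hc, one_smul]
  set h := tt v φ * τ with hh
  have hH : h ∈ H := C.α_mem τ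
  have hcomm' : h * y' = y' * h := by
    rw [e1, hy']
    calc u * τ * u⁻¹ * (u * y * u⁻¹) = u * (τ * y) * u⁻¹ := by group
      _ = u * (y * τ) * u⁻¹ := by rw [hcomm]
      _ = u * y * u⁻¹ * (u * τ * u⁻¹) := by group
  set ψ := C.α y' with hψ
  have hψd : ψ ⬝ᵥ v = 0 := C.α_dot y'
  have hs : tt v ψ * y' ∈ H := C.α_mem y'
  have hκψd : (κ • ψ) ⬝ᵥ v = 0 := by rw [smul_dotProduct, hψd, smul_zero]
  have e2 : h * (tt v ψ * y') * h⁻¹ = tt v (κ • ψ) * y' := by
    have e3 : h * tt v ψ * h⁻¹ = tt v (κ • ψ) := by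
      rw [hh, _root_.mul_inv_rev, tt_inv hφd]
      have e4 : tt v φ * τ * tt v ψ * (τ⁻¹ * tt v (-φ)) =
          tt v φ * (τ * tt v ψ * τ⁻¹) * tt v (-φ) := by group
      rw [e4, hτ ψ hψd, tt_mul_same hφd hκψd, tt_mul_same (by rw [add_dotProduct, hφd, hκψd, add_zero])
        (by rw [neg_dotProduct, hφd, neg_zero])]
      congr 1
      abel
    rw [← e3]
    have e6 : h * y' * h⁻¹ = y' := by
      rw [hcomm', mul_inv_cancel_right]
    calc h * (tt v ψ * y') * h⁻¹ = h * tt v ψ * h⁻¹ * (h * y' * h⁻¹) := by group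
      _ = _ := by rw [e6]
  have hm : tt v (κ • ψ) * y' ∈ H := by
    rw [← e2]
    exact H.mul_mem (H.mul_mem hH hs) (H.inv_mem hH)
  have e5 := C.eq_of_mem hv hκψd hψd hm hs
  have hψ0 : ψ = 0 := by
    have h6 : (κ - 1) • ψ = 0 := by
      rw [sub_smul, one_smul, e5, sub_self]
    exact (smul_eq_zero.1 h6).resolve_left (sub_ne_zero.2 hκ)
  rw [hψ0, tt_zero_right, one_mul] at hs
  rw [hy', hy, tt_conj h₀] at hs
  refine C.no _ _ (mulVec_ne_zero u hc₀) ?_ ?_ hs
  · exact vecMul_ne_zero _ hφ₀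
  · rw [sl_dot_inv, h₀]

end Compl

/-- The diagonal element. -/
noncomputable def tauEl (i0 : Fin N) {b : k} (hb : b ≠ 0) : SpecialLinearGroup (Fin N) k :=
  ⟨diagonal (fun i => if i = i0 then (b ^ (N - 1))⁻¹ else b), by
    classical
    rw [det_diagonal, ← Finset.mul_prod_erase Finset.univ _ (Finset.mem_univ i0), if_pos rfl]
    have e1 : ∀ i ∈ Finset.univ.erase i0, (if i = i0 then (b ^ (N - 1))⁻¹ else b) = b := by
      intro i hi
      rw [if_neg (Finset.ne_of_mem_erase hi)]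
    rw [Finset.prod_congr rfl e1, Finset.prod_const, Finset.card_erase_of_mem (Finset.mem_univ _),
      Finset.card_univ, Fintype.card_fin, inv_mul_cancel₀ (pow_ne_zero _ hb)]⟩

section Tau

variable {H : Subgroup (SpecialLinearGroup (Fin N) k)} {i0 : Fin N} (C : Compl H (e i0))

include C in
theorem case_tau {i1 i2 : Fin N} (h01 : i0 ≠ i1) (h02 : i0 ≠ i2) (h12 : i1 ≠ i2) {b : k} (hb : b ≠ 0)
    (hbN : b ^ N ≠ 1) : False := by
  set τ := tauEl i0 hb with hτ
  set μ := (b ^ (N - 1))⁻¹ with hμ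
  have hNpos : 0 < N := i0.pos
  have τval : τ.1 = diagonal (fun i => if i = i0 then μ else b) := rfl
  have hvec : ∀ i, τ.1 *ᵥ e i = (if i = i0 then μ else b) • e i := by
    intro i
    rw [τval]
    funext j
    simp only [mulVec_diagonal, Pi.smul_apply, smul_eq_mul, e, Pi.single_apply]
    by_cases hj : j = i
    · subst hj
      simp
    · simp [hj]
  have hrow : ∀ ψ : Fin N → k, ψ i0 = 0 → ψ ᵥ* τ.1 = b • ψ := by
    intro ψ hψ
    rw [τval]
    funext j
    simp only [vecMul_diagonal, Pi.smul_apply, smul_eq_mul]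
    by_cases hj : j = i0
    · subst hj
      simp [hψ]
    · simp [hj, mul_comm]
  have hrow' : ∀ ψ : Fin N → k, ψ i0 = 0 → ψ ᵥ* (τ⁻¹).1 = b⁻¹ • ψ := by
    intro ψ hψ
    have h1 : (b⁻¹ • ψ) ᵥ* τ.1 = ψ := by
      rw [smul_vecMul, hrow ψ hψ, smul_smul, inv_mul_cancel₀ hb, one_smul]
    calc ψ ᵥ* (τ⁻¹).1 = ((b⁻¹ • ψ) ᵥ* τ.1) ᵥ* (τ⁻¹).1 := by rw [h1]
      _ = b⁻¹ • ψ := by rw [vecMul_vecMul, sl_mul_inv_coe, vecMul_one]
  have hκ : μ * b⁻¹ ≠ 1 := by
    intro h1
    apply hbN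
    have h2 : μ = b := by
      field_simp at h1
      exact h1
    have h3 : b ^ N = b ^ (N - 1) * b := by
      rw [← pow_succ, Nat.sub_add_cancel hNpos]
    rw [h3]
    nth_rewrite 2 [← h2]
    rw [hμ, mul_inv_cancel₀ (pow_ne_zero _ hb)]
  have hact : ∀ ψ : Fin N → k, ψ ⬝ᵥ e i0 = 0 → τ * tt (e i0) ψ * τ⁻¹ = tt (e i0) ((μ * b⁻¹) • ψ) := by
    intro ψ hψ
    have hψ0 : ψ i0 = 0 := by rwa [dot_e] at hψ
    rw [tt_conj hψ, hvec, if_pos rfl, hrow' ψ hψ0, tt_smul_move, smul_smul]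
  have d21 : e (k := k) i2 ⬝ᵥ e i1 = 0 := e_dot_e h12.symm
  have hcomm : τ * tt (e i1) (e i2) = tt (e i1) (e (k := k) i2) * τ := by
    rw [← mul_inv_eq_iff_eq_mul, tt_conj d21, hvec, if_neg h01.symm,
      hrow' _ (by simp [e, h02]), tt_smul_move, smul_smul, mul_inv_cancel₀ hb, one_smul]
  exact C.contra_of_tau (e_ne_zero i0) τ hκ hact (e_ne_zero i1) (e_ne_zero i2) d21 hcomm

end Tau

/-- The assembled statement. -/
theorem no_compl [Fintype k] (hN : 3 ≤ N) (hexc : ¬ (N = 4 ∧ Fintype.card k = 2))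
    {H : Subgroup (SpecialLinearGroup (Fin N) k)}
    (C : Compl H (e (⟨0, by omega⟩ : Fin N))) : False := by
  rcases Nat.lt_or_ge N 5 with h5 | h5
  · have h34 : N = 3 ∨ N = 4 := by omega
    rcases h34 with rfl | rfl
    · have hcov : ∀ i : Fin 3, i = ⟨0, by omega⟩ ∨ i = 1 ∨ i = 2 := by
        intro i
        fin_cases i <;> simp
      by_cases h2 : (2 : k) = 0
      · exact case3 C h2 (i1 := 1) (i2 := 2) (by simp [Fin.ext_iff]) (by simp [Fin.ext_iff]) (by simp [Fin.ext_iff]) hcov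
      · refine case_tau C (i1 := 1) (i2 := 2) (b := -1) (by simp [Fin.ext_iff]) (by simp [Fin.ext_iff]) (by simp [Fin.ext_iff])
          (neg_ne_zero.2 one_ne_zero) ?_
        intro h
        apply h2
        have : (-1 : k) ^ 3 = -1 := by ring
        rw [this] at h
        linear_combination -h
    · have hcov : ∀ i : Fin 4, i = ⟨0, by omega⟩ ∨ i = 1 ∨ i = 2 ∨ i = 3 := by
        intro i
        fin_cases i <;> simp
      by_cases h2 : (2 : k) = 0
      · -- a non-trivial element exists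
        have hq : Fintype.card k ≠ 2 := fun h => hexc ⟨rfl, h⟩
        have hq2 : 2 ≤ Fintype.card k := Fintype.one_lt_card
        have hex : ∃ b : k, b ≠ 0 ∧ b ≠ 1 := by
          by_contra hcon
          push Not at hcon
          classical
          have hle : (Finset.univ : Finset k) ⊆ {0, 1} := by
            intro b _
            by_cases hb : b = 0
            · simp [hb]
            · simp [hcon b hb]
          have := Finset.card_le_card hle
          rw [Finset.card_univ] at this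
          have h3 : ({0, 1} : Finset k).card ≤ 2 := Finset.card_le_two
          omega
        obtain ⟨b, hb0, hb1⟩ := hex
        refine case_tau C (i1 := 1) (i2 := 2) (b := b) (by simp [Fin.ext_iff]) (by simp [Fin.ext_iff]) (by simp [Fin.ext_iff]) hb0 ?_
        intro h
        have h3 : (b - 1) ^ 4 = 0 := by
          linear_combination h - (2 * b ^ 3 - 3 * b ^ 2 + 2 * b - 1) * h2
        exact hb1 (sub_eq_zero.1 (pow_eq_zero_iff (by norm_num) |>.1 h3))
      · exact case4 C h2 (i1 := 1) (i2 := 2) (i3 := 3) (by simp [Fin.ext_iff]) (by simp [Fin.ext_iff]) (by simp [Fin.ext_iff])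
          (by simp [Fin.ext_iff]) (by simp [Fin.ext_iff]) (by simp [Fin.ext_iff]) hcov
  · refine case5 C (i1 := ⟨1, by omega⟩) (i2 := ⟨2, by omega⟩) (i3 := ⟨3, by omega⟩)
      (i4 := ⟨4, by omega⟩) ?_ ?_ ?_ ?_ ?_ ?_ ?_ ?_ ?_ ?_ <;> simp [Fin.ext_iff]

end Cfsg.Agent.Lib.Classical.MinIndex
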