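import Mathlib

/-!
Counting for a finite commutative group `U` acting on a finite set such that all the non-identity
elements have the same number of fixed points.
-/

set_option autoImplicit false
set_option linter.unusedSectionVars false
set_option linter.unusedSimpArgs false
set_option linter.style.haveILetI false
set_option linter.unusedVariables false

namespace Cfsg.Agent.Lib.Classical.MinIndex

open MulAction

variable {U X : Type*} [CommGroup U] [Finite U] [MulAction U X] [Fintype X]

/-- All the non-identity elements have `c` fixed points. -/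
def FixC (U X : Type*) [Group U] [MulAction U X] (c : ℕ) : Prop :=
  ∀ u : U, u ≠ 1 → Nat.card (fixedBy X u) = c

omit [Fintype X] in
lemma inf_mul_le (A S : Subgroup U) :
    Nat.card A * Nat.card S ≤ Nat.card U * Nat.card (A ⊓ S : Subgroup U) := by
  have h1 : (A ⊓ S).index ≤ A.index * S.index := Subgroup.index_inf_le
  have e1 := A.card_mul_index
  have e2 := S.card_mul_index
  have e3 := (A ⊓ S).card_mul_index
  set b := Nat.card U with hb
  have hb0 : 0 < b := Nat.card_pos
  have hi : 0 < A.index * S.index := by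
    apply Nat.mul_pos
    · exact Nat.pos_of_ne_zero (fun h => by rw [h, mul_zero] at e1; omega)
    · exact Nat.pos_of_ne_zero (fun h => by rw [h, mul_zero] at e2; omega)
  apply Nat.le_of_mul_le_mul_right _ hi
  calc Nat.card A * Nat.card S * (A.index * S.index)
      = (Nat.card A * A.index) * (Nat.card S * S.index) := by ring
    _ = b * b := by rw [e1, e2]
    _ = b * (Nat.card (A ⊓ S : Subgroup U) * (A ⊓ S).index) := by rw [e3]
    _ = b * Nat.card (A ⊓ S : Subgroup U) * (A ⊓ S).index := by ring
    _ ≤ b * Nat.card (A ⊓ S : Subgroup U) * (A.index * S.index) := Nat.mul_le_mul_left _ h1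

lemma sum_stab {c : ℕ} (hc : FixC U X c) (A : Subgroup U) :
    ∑ x : X, Nat.card (stabilizer U x ⊓ A : Subgroup U) = Fintype.card X + (Nat.card A - 1) * c := by
  classical
  haveI := Fintype.ofFinite U
  have e1 : ∀ x : X, Nat.card (stabilizer U x ⊓ A : Subgroup U) =
      (Finset.univ.filter (fun u : U => u ∈ A ∧ u • x = x)).card := by
    intro x
    rw [Nat.card_eq_fintype_card, Fintype.card_subtype]
    congr 1
    ext u
    simp only [Finset.mem_filter, Finset.mem_univ, true_and, Subgroup.mem_inf, mem_stabilizer_iff]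
    exact and_comm
  have e2 : ∀ u : U, (Finset.univ.filter (fun x : X => u ∈ A ∧ u • x = x)).card =
      if u ∈ A then Nat.card (fixedBy X u) else 0 := by
    intro u
    by_cases hu : u ∈ A
    · rw [if_pos hu, Nat.card_eq_fintype_card, Fintype.card_subtype]
      congr 1
      ext x
      simp [hu, mem_fixedBy]
    · rw [if_neg hu]
      simp [hu]
  have e3 : ∑ x : X, (Finset.univ.filter (fun u : U => u ∈ A ∧ u • x = x)).card =
      ∑ u : U, (Finset.univ.filter (fun x : X => u ∈ A ∧ u • x = x)).card :=
    Finset.sum_card_bipartiteAbove_eq_sum_card_bipartiteBelow _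
  rw [Finset.sum_congr rfl (fun x _ => e1 x), e3, Finset.sum_congr rfl (fun u _ => e2 u)]
  rw [← Finset.sum_filter]
  have e4 : (Finset.univ.filter (fun u : U => u ∈ A)) =
      insert 1 ((Finset.univ.filter (fun u : U => u ∈ A)).erase 1) := by
    rw [Finset.insert_erase]
    simp [A.one_mem]
  rw [e4, Finset.sum_insert (Finset.notMem_erase _ _)]
  have e5 : ∀ u ∈ (Finset.univ.filter (fun u : U => u ∈ A)).erase 1,
      Nat.card (fixedBy X u) = c := fun u hu => hc u (Finset.ne_of_mem_erase hu)
  rw [Finset.sum_congr rfl e5, Finset.sum_const, smul_eq_mul]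
  have e6 : Nat.card (fixedBy X (1 : U)) = Fintype.card X := by
    rw [Nat.card_eq_fintype_card, Fintype.card_subtype]
    congr 1
    ext x
    simp [mem_fixedBy]
  have e7 : ((Finset.univ.filter (fun u : U => u ∈ A)).erase 1).card = Nat.card A - 1 := by
    rw [Finset.card_erase_of_mem (by simp [A.one_mem]), Nat.card_eq_fintype_card,
      Fintype.card_subtype]
  rw [e6, e7]

omit [Fintype X] in
lemma stab_eq_of_mem_orbit {ω x : X} (h : x ∈ orbit U ω) : stabilizer U x = stabilizer U ω := by
  obtain ⟨u, rfl⟩ := h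
  change stabilizer U (u • ω) = _
  ext a
  simp only [mem_stabilizer_iff]
  constructor
  · intro h
    have h2 : u • a • ω = u • ω := by
      rw [smul_comm]
      exact h
    exact MulAction.injective u h2
  · intro h
    rw [smul_comm, h]

/-- Over an orbit the stabilizer orders sum to the group order. -/
lemma sum_orbit (ω : X) [DecidablePred fun x => x ∈ orbit U ω] :
    ∑ x ∈ Finset.univ.filter (fun x => x ∈ orbit U ω), Nat.card (stabilizer U x) = Nat.card U := by
  classical
  have e1 : ∀ x ∈ Finset.univ.filter (fun x => x ∈ orbit U ω),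
      Nat.card (stabilizer U x) = Nat.card (stabilizer U ω) := by
    intro x hx
    rw [stab_eq_of_mem_orbit (Finset.mem_filter.1 hx).2]
  haveI := Fintype.ofFinite U
  rw [Finset.sum_congr rfl e1, Finset.sum_const, smul_eq_mul, Nat.card_eq_fintype_card (α := U),
    ← card_orbit_mul_card_stabilizer_eq_card_group U ω, Nat.card_eq_fintype_card]
  congr 1
  rw [Fintype.card_subtype]

/-- Two points in different orbits: the stabilizers generate, when `|X| = c + |U|`. -/
theorem pair_sup {c : ℕ} (hc : FixC U X c) (hm : Fintype.card X = c + Nat.card U) {ω ω' : X}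
    (hne : ω' ∉ orbit U ω) : stabilizer U ω ⊔ stabilizer U ω' = ⊤ := by
  classical
  set A : Subgroup U := stabilizer U ω ⊔ stabilizer U ω' with hA
  set a := Nat.card A with ha
  set b := Nat.card U with hb
  have hb0 : 0 < b := Nat.card_pos
  have ha0 : 0 < a := Nat.card_pos
  have hab : a ≤ b := Subgroup.card_le_card_group A
  set m := Fintype.card X with hmm
  have s1 := sum_stab hc A
  have s2 := sum_stab hc (⊤ : Subgroup U)
  rw [← ha] at s1
  have eTop : Nat.card (⊤ : Subgroup U) = b := Subgroup.card_top
  rw [eTop] at s2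
  have einf : ∀ x : X, Nat.card (stabilizer U x ⊓ ⊤ : Subgroup U) = Nat.card (stabilizer U x) := by
    intro x
    rw [inf_top_eq]
  simp_rw [einf] at s2
  -- the pointwise inequality
  have hpt : ∀ x : X, (a : ℤ) * Nat.card (stabilizer U x) ≤
      b * Nat.card (stabilizer U x ⊓ A : Subgroup U) := by
    intro x
    have h1 := inf_mul_le A (stabilizer U x)
    rw [inf_comm] at h1
    exact_mod_cast h1
  -- the orbits
  set O := Finset.univ.filter (fun x => x ∈ orbit U ω) with hO
  set O' := Finset.univ.filter (fun x => x ∈ orbit U ω') with hO'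
  have hdisj : Disjoint O O' := by
    rw [Finset.disjoint_left]
    intro x hx hx'
    have h1 := (Finset.mem_filter.1 hx).2
    have h2 := (Finset.mem_filter.1 hx').2
    apply hne
    have h3 : orbit U x = orbit U ω := orbit_eq_iff.2 h1
    have h4 : orbit U x = orbit U ω' := orbit_eq_iff.2 h2
    rw [← h3, h4]
    exact mem_orbit_self _
  have hon : ∀ x ∈ O ∪ O', Nat.card (stabilizer U x ⊓ A : Subgroup U) =
      Nat.card (stabilizer U x) := by
    intro x hx
    have : stabilizer U x ≤ A := by
      rcases Finset.mem_union.1 hx with h | h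
      · rw [stab_eq_of_mem_orbit (Finset.mem_filter.1 h).2]
        exact le_sup_left
      · rw [stab_eq_of_mem_orbit (Finset.mem_filter.1 h).2]
        exact le_sup_right
    rw [inf_eq_left.2 this]
  have sO := sum_orbit (U := U) ω
  have sO' := sum_orbit (U := U) ω'
  rw [← hO, ← hb] at sO
  rw [← hO', ← hb] at sO'
  -- the sum
  let D : X → ℤ := fun x => (b : ℤ) * Nat.card (stabilizer U x ⊓ A : Subgroup U) -
    a * Nat.card (stabilizer U x)
  have hD : ∀ x, 0 ≤ D x := fun x => sub_nonneg.2 (hpt x)
  have hsum : ∑ x : X, D x = ((b : ℤ) - a) * b := by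
    have e1 : ∑ x : X, D x = (b : ℤ) * ∑ x : X, (Nat.card (stabilizer U x ⊓ A : Subgroup U) : ℤ) -
        a * ∑ x : X, (Nat.card (stabilizer U x) : ℤ) := by
      simp only [D, Finset.sum_sub_distrib, Finset.mul_sum]
    rw [e1]
    have e2 : ∑ x : X, (Nat.card (stabilizer U x ⊓ A : Subgroup U) : ℤ) = m + (a - 1) * c := by
      have := congrArg (Nat.cast (R := ℤ)) s1
      push_cast [Nat.cast_sub ha0] at this
      rw [this]
    have e3 : ∑ x : X, (Nat.card (stabilizer U x) : ℤ) = m + (b - 1) * c := by
      have := congrArg (Nat.cast (R := ℤ)) s2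
      push_cast [Nat.cast_sub hb0] at this
      rw [this]
    rw [e2, e3, hm]
    push_cast
    ring
  have hpart : ∑ x ∈ O ∪ O', D x = 2 * (((b : ℤ) - a) * b) := by
    have e1 : ∀ x ∈ O ∪ O', D x = ((b : ℤ) - a) * Nat.card (stabilizer U x) := by
      intro x hx
      simp only [D]
      rw [hon x hx]
      ring
    rw [Finset.sum_congr rfl e1, Finset.sum_union hdisj, ← Finset.mul_sum, ← Finset.mul_sum]
    have e2 : ∑ x ∈ O, (Nat.card (stabilizer U x) : ℤ) = b := by exact_mod_cast sO
    have e3 : ∑ x ∈ O', (Nat.card (stabilizer U x) : ℤ) = b := by exact_mod_cast sO'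
    rw [e2, e3]
    ring
  have hle : ∑ x ∈ O ∪ O', D x ≤ ∑ x : X, D x :=
    Finset.sum_le_univ_sum_of_nonneg hD
  rw [hpart, hsum] at hle
  have hb1 : (0 : ℤ) < b := by exact_mod_cast hb0
  have hab2 : (b : ℤ) ≤ a := by
    by_contra h2
    push Not at h2
    have : 0 < ((b : ℤ) - a) * b := mul_pos (by linarith) hb1
    linarith
  have hab3 : a = b := le_antisymm hab (by exact_mod_cast hab2)
  exact (Subgroup.eq_top_of_card_eq A hab3)

/-- The divisibility of Burnside's lemma. -/
theorem burnside_dvd {c : ℕ} (hc : FixC U X c) :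
    ∃ k : ℕ, k * Nat.card U = Fintype.card X + (Nat.card U - 1) * c := by
  classical
  haveI := Fintype.ofFinite U
  haveI : ∀ a : U, Fintype (fixedBy X a) := fun a => Fintype.ofFinite _
  haveI : Fintype (Quotient (orbitRel U X)) := Fintype.ofFinite _
  refine ⟨Fintype.card (Quotient (orbitRel U X)), ?_⟩
  have h1 := sum_card_fixedBy_eq_card_orbits_mul_card_group U X
  rw [Nat.card_eq_fintype_card, ← h1]
  have s2 := sum_stab hc (⊤ : Subgroup U)
  have eTop : Nat.card (⊤ : Subgroup U) = Fintype.card U := by
    rw [Subgroup.card_top, Nat.card_eq_fintype_card]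
  rw [eTop] at s2
  rw [← s2]
  have e3 : ∑ x : X, (Finset.univ.filter (fun u : U => u • x = x)).card =
      ∑ u : U, (Finset.univ.filter (fun x : X => u • x = x)).card :=
    Finset.sum_card_bipartiteAbove_eq_sum_card_bipartiteBelow _
  have e4 : ∀ x : X, Nat.card (stabilizer U x ⊓ ⊤ : Subgroup U) =
      (Finset.univ.filter (fun u : U => u • x = x)).card := by
    intro x
    rw [inf_top_eq, Nat.card_eq_fintype_card, Fintype.card_subtype]
    congr 1
  have e5 : ∀ u : U, Fintype.card (fixedBy X u) =
      (Finset.univ.filter (fun x : X => u • x = x)).card := by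
    intro u
    rw [Fintype.card_subtype]
    congr 1
  rw [Finset.sum_congr rfl (fun x _ => e4 x), e3, Finset.sum_congr rfl (fun u _ => e5 u)]

/-- The first count: `|X| = c + |U|` when `c < |X| < c + 2|U|`. -/
theorem card_eq_add {c : ℕ} (hc : FixC U X c) (h1 : c < Fintype.card X)
    (h2 : Fintype.card X < c + 2 * Nat.card U) : Fintype.card X = c + Nat.card U := by
  obtain ⟨k, hk⟩ := burnside_dvd hc
  have hb0 : 0 < Nat.card U := Nat.card_pos
  obtain ⟨b', hb'⟩ : ∃ b', Nat.card U = b' + 1 := ⟨Nat.card U - 1, by omega⟩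
  rw [hb'] at hk h2 ⊢
  generalize Fintype.card X = m at *
  simp only [Nat.add_sub_cancel] at hk
  -- `k (b'+1) = m + b' c`
  have hk1 : c + 1 ≤ k := by
    by_contra h3
    have h4 : k ≤ c := by omega
    have : k * (b' + 1) ≤ c * (b' + 1) := Nat.mul_le_mul_right _ h4
    nlinarith
  have hk2 : k < c + 2 := by
    by_contra h3
    have h4 : c + 2 ≤ k := by omega
    have : (c + 2) * (b' + 1) ≤ k * (b' + 1) := Nat.mul_le_mul_right _ h4
    nlinarith
  have hk3 : k = c + 1 := by omega
  rw [hk3] at hk
  nlinarith

/-- The bound for stabilizer orders: if all the orbits are small, then all have exactly the size. -/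
theorem card_stab_eq {c q : ℕ} (hc : FixC U X c) (hm : Fintype.card X = c + Nat.card U)
    (hq : ∀ x : X, Nat.card U ≤ q * Nat.card (stabilizer U x)) (hbd : q * (c + 1) ≤ c + Nat.card U)
    (x : X) : q * Nat.card (stabilizer U x) = Nat.card U := by
  classical
  have s2 := sum_stab hc (⊤ : Subgroup U)
  have eTop : Nat.card (⊤ : Subgroup U) = Nat.card U := Subgroup.card_top
  rw [eTop] at s2
  have einf : ∀ x : X, Nat.card (stabilizer U x ⊓ ⊤ : Subgroup U) = Nat.card (stabilizer U x) := by
    intro x
    rw [inf_top_eq]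
  simp_rw [einf] at s2
  have hb0 : 0 < Nat.card U := Nat.card_pos
  by_contra hne
  have hlt : ∑ y : X, Nat.card U < ∑ y : X, q * Nat.card (stabilizer U y) := by
    refine Finset.sum_lt_sum (fun y _ => hq y) ⟨x, Finset.mem_univ _, ?_⟩
    exact lt_of_le_of_ne (hq x) (Ne.symm hne)
  rw [← Finset.mul_sum, s2, Finset.sum_const, Finset.card_univ, smul_eq_mul, hm] at hlt
  obtain ⟨b', hb'⟩ : ∃ b', Nat.card U = b' + 1 := ⟨Nat.card U - 1, by omega⟩
  rw [hb'] at hlt hbd
  simp only [Nat.add_sub_cancel] at hlt
  have e1 : q * (c + (b' + 1) + b' * c) = q * (c + 1) * (b' + 1) := by ring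
  rw [e1] at hlt
  have e2 : q * (c + 1) * (b' + 1) ≤ (c + (b' + 1)) * (b' + 1) := Nat.mul_le_mul_right _ hbd
  omega

end Cfsg.Agent.Lib.Classical.MinIndex
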