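import Cfsg.Agent.Lib.Classical.TransvSL

/-!
The elements `1 + c ⊗ φ` of `SL_N(k)`, without proof arguments.
-/

set_option autoImplicit false
set_option linter.unusedSectionVars false
set_option linter.unusedSimpArgs false
set_option linter.style.haveILetI false
set_option linter.unusedVariables false

open Matrix

namespace Cfsg.Agent.Lib.Classical.MinIndex

open Cfsg.Agent.Lib.Classical.TransvRoot Cfsg.Agent.Lib.Classical.TransvSL

variable {k : Type*} [Field k] {N : ℕ}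

open _root_.Classical in
/-- The transvection `1 + c ⊗ φ`. -/
noncomputable def tt (c φ : Fin N → k) : SpecialLinearGroup (Fin N) k :=
  if h : φ ⬝ᵥ c = 0 then tv c φ h 1 else 1

lemma tt_val {c φ : Fin N → k} (h : φ ⬝ᵥ c = 0) : (tt c φ).1 = 1 + E c φ := by
  unfold tt
  rw [dif_pos h]
  change 1 + (1 : k) • E c φ = _
  rw [one_smul]

lemma E_add_right (c φ ψ : Fin N → k) : E c (φ + ψ) = E c φ + E c ψ := by
  ext i j
  simp [vecMulVec_apply, mul_add]

lemma E_add_left (c d φ : Fin N → k) : E (c + d) φ = E c φ + E d φ := by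
  ext i j
  simp [vecMulVec_apply, add_mul]

lemma E_zero_left (φ : Fin N → k) : E 0 φ = 0 := by
  ext i j
  simp [vecMulVec_apply]

lemma E_zero_right (c : Fin N → k) : E c (0 : Fin N → k) = 0 := by
  ext i j
  simp [vecMulVec_apply]

lemma E_smul_left (s : k) (c φ : Fin N → k) : E (s • c) φ = s • E c φ := by
  ext i j
  simp [vecMulVec_apply, mul_assoc]

lemma E_smul_right (s : k) (c φ : Fin N → k) : E c (s • φ) = s • E c φ := by
  ext i j
  simp only [vecMulVec_apply, Matrix.smul_apply, smul_eq_mul, Pi.smul_apply]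
  ring

lemma tt_ext {g g' : SpecialLinearGroup (Fin N) k} (h : g.1 = g'.1) : g = g' := Subtype.ext h

lemma tt_mul_val {c φ d ψ : Fin N → k} (h : φ ⬝ᵥ c = 0) (h' : ψ ⬝ᵥ d = 0) :
    (tt c φ * tt d ψ).1 = 1 + E c φ + E d ψ + (φ ⬝ᵥ d) • E c ψ := by
  change (tt c φ).1 * (tt d ψ).1 = _
  rw [tt_val h, tt_val h', mul_add, add_mul, add_mul, one_mul, one_mul, mul_one, E_mul_E]
  abel

lemma tt_mul_same {c φ ψ : Fin N → k} (h : φ ⬝ᵥ c = 0) (h' : ψ ⬝ᵥ c = 0) :
    tt c φ * tt c ψ = tt c (φ + ψ) := by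
  apply tt_ext
  rw [tt_mul_val h h', tt_val (by rw [add_dotProduct, h, h', add_zero]), h, zero_smul, add_zero,
    E_add_right, add_assoc]

lemma tt_mul_same_left {c d φ : Fin N → k} (h : φ ⬝ᵥ c = 0) (h' : φ ⬝ᵥ d = 0) :
    tt c φ * tt d φ = tt (c + d) φ := by
  apply tt_ext
  rw [tt_mul_val h h', tt_val (by rw [dotProduct_add, h, h', add_zero]), h', zero_smul, add_zero,
    E_add_left, add_assoc]

@[simp] lemma tt_zero_right (c : Fin N → k) : tt c (0 : Fin N → k) = 1 := by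
  apply tt_ext
  rw [tt_val (zero_dotProduct _), E_zero_right, add_zero]
  rfl

@[simp] lemma tt_zero_left (φ : Fin N → k) : tt 0 φ = 1 := by
  apply tt_ext
  rw [tt_val (dotProduct_zero _), E_zero_left, add_zero]
  rfl

lemma tt_inv {c φ : Fin N → k} (h : φ ⬝ᵥ c = 0) : (tt c φ)⁻¹ = tt c (-φ) := by
  rw [eq_comm, eq_inv_iff_mul_eq_one, tt_mul_same (by rw [neg_dotProduct, h, neg_zero]) h]
  simp

lemma tt_inv' {c φ : Fin N → k} (h : φ ⬝ᵥ c = 0) : (tt c φ)⁻¹ = tt (-c) φ := by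
  rw [eq_comm, eq_inv_iff_mul_eq_one, tt_mul_same_left (by rw [dotProduct_neg, h, neg_zero]) h]
  simp

lemma tt_smul_move {c φ : Fin N → k} (s : k) : tt (s • c) φ = tt c (s • φ) := by
  by_cases h : φ ⬝ᵥ c = 0
  · apply tt_ext
    rw [tt_val (by rw [dotProduct_smul, h, smul_zero]), tt_val (by rw [smul_dotProduct, h, smul_zero]),
      E_smul_left, E_smul_right]
  · by_cases hs : s = 0
    · subst hs
      simp
    · unfold tt
      rw [dif_neg, dif_neg]
      · rw [smul_dotProduct, smul_eq_mul]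
        exact mul_ne_zero hs h
      · rw [dotProduct_smul, smul_eq_mul]
        exact mul_ne_zero hs h

lemma sl_dot_inv {c φ : Fin N → k} (g : SpecialLinearGroup (Fin N) k) :
    (φ ᵥ* (g⁻¹).1) ⬝ᵥ (g.1 *ᵥ c) = φ ⬝ᵥ c := by
  rw [← dotProduct_mulVec, mulVec_mulVec, sl_inv_mul_coe, one_mulVec]

lemma tt_conj {c φ : Fin N → k} (h : φ ⬝ᵥ c = 0) (g : SpecialLinearGroup (Fin N) k) :
    g * tt c φ * g⁻¹ = tt (g.1 *ᵥ c) (φ ᵥ* (g⁻¹).1) := by
  apply tt_ext
  have h' : (φ ᵥ* (g⁻¹).1) ⬝ᵥ (g.1 *ᵥ c) = 0 := by rw [sl_dot_inv, h]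
  rw [tt_val h']
  change g.1 * (tt c φ).1 * (g⁻¹).1 = _
  rw [tt_val h, mul_add, add_mul, mul_one, sl_mul_inv_coe, mat_mul_E, E_mul_mat]

lemma tt_mulVec {c φ : Fin N → k} (h : φ ⬝ᵥ c = 0) (w : Fin N → k) :
    (tt c φ).1 *ᵥ w = w + (φ ⬝ᵥ w) • c := by
  rw [tt_val h, add_mulVec, one_mulVec, E_mulVec]

lemma vecMul_tt {c φ : Fin N → k} (h : φ ⬝ᵥ c = 0) (ψ : Fin N → k) :
    ψ ᵥ* (tt c φ).1 = ψ + (ψ ⬝ᵥ c) • φ := by
  rw [tt_val h, vecMul_add, vecMul_one, vec_E]

lemma vecMul_tt_inv {c φ : Fin N → k} (h : φ ⬝ᵥ c = 0) (ψ : Fin N → k) :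
    ψ ᵥ* ((tt c φ)⁻¹).1 = ψ - (ψ ⬝ᵥ c) • φ := by
  rw [tt_inv h, vecMul_tt (by rw [neg_dotProduct, h, neg_zero]), smul_neg, sub_eq_add_neg]

lemma exists_ne_of_ne_zero {v : Fin N → k} (hv : v ≠ 0) : ∃ i, v i ≠ 0 := by
  by_contra h
  push Not at h
  exact hv (funext h)

lemma E_inj_right {v φ ψ : Fin N → k} (hv : v ≠ 0) (h : E v φ = E v ψ) : φ = ψ := by
  obtain ⟨i, hi⟩ := exists_ne_of_ne_zero hv
  funext j
  have := congrFun (congrFun h i) j
  simp only [vecMulVec_apply] at this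
  exact mul_left_cancel₀ hi this

lemma E_inj_left {c d φ : Fin N → k} (hφ : φ ≠ 0) (h : E c φ = E d φ) : c = d := by
  obtain ⟨i, hi⟩ := exists_ne_of_ne_zero hφ
  funext j
  have := congrFun (congrFun h j) i
  simp only [vecMulVec_apply] at this
  exact mul_right_cancel₀ hi this

lemma tt_inj {v φ ψ : Fin N → k} (hv : v ≠ 0) (h : φ ⬝ᵥ v = 0) (h' : ψ ⬝ᵥ v = 0)
    (e : tt v φ = tt v ψ) : φ = ψ := by
  have e1 := congrArg Subtype.val e
  rw [tt_val h, tt_val h'] at e1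
  exact E_inj_right hv (add_left_cancel e1)

lemma tt_inj_left {c d φ : Fin N → k} (hφ : φ ≠ 0) (h : φ ⬝ᵥ c = 0) (h' : φ ⬝ᵥ d = 0)
    (e : tt c φ = tt d φ) : c = d := by
  have e1 := congrArg Subtype.val e
  rw [tt_val h, tt_val h'] at e1
  exact E_inj_left hφ (add_left_cancel e1)

lemma tt_eq_one {v φ : Fin N → k} (hv : v ≠ 0) (h : φ ⬝ᵥ v = 0) (e : tt v φ = 1) : φ = 0 :=
  tt_inj hv h (zero_dotProduct _) (by rw [e, tt_zero_right])

lemma tt_ne_one {v φ : Fin N → k} (hv : v ≠ 0) (hφ : φ ≠ 0) (h : φ ⬝ᵥ v = 0) : tt v φ ≠ 1 :=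
  fun e => hφ (tt_eq_one hv h e)

/-- The commutator of two elements. -/
lemma tt_comm {v φ v' ψ : Fin N → k} (h : φ ⬝ᵥ v = 0) (h' : ψ ⬝ᵥ v' = 0) (hβ : ψ ⬝ᵥ v = 0) :
    tt v φ * tt v' ψ * (tt v φ)⁻¹ * (tt v' ψ)⁻¹ = tt v ((φ ⬝ᵥ v') • ψ) := by
  apply tt_ext
  have hs : ((φ ⬝ᵥ v') • ψ) ⬝ᵥ v = 0 := by rw [smul_dotProduct, hβ, smul_zero]
  rw [tt_val hs]
  have e1 := comm_val (ρ := slHom) (c := v) (φ := φ) (c' := v') (φ' := ψ) (a := tt v φ) (b := tt v' ψ)
    (t := 1) (s := 1) (h' := h') hβ (by rw [slHom_apply, tt_val h, one_smul])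
    (by rw [slHom_apply, tt_val h', one_smul])
  rw [slHom_apply, one_mul, one_mul] at e1
  rw [E_smul_right]
  exact e1

/-- Transvections are all conjugate. -/
lemma exists_conj_base {a b i : Fin N} (hab : a ≠ b) (hai : a ≠ i) (hbi : b ≠ i) {c φ : Fin N → k}
    (hc : c ≠ 0) (hφ : φ ≠ 0) (h : φ ⬝ᵥ c = 0) :
    ∃ g : SpecialLinearGroup (Fin N) k, g * tt (e a) (e b) * g⁻¹ = tt c φ := by
  obtain ⟨x, l, m, hl, hm, e1, e2⟩ := exists_move hab hc hφ h
  have hlm : l * m ≠ 0 := mul_ne_zero hl hm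
  set s := (l * m)⁻¹ with hs
  have hs0 : s ≠ 0 := inv_ne_zero hlm
  set d := SpecialLinearGroup.diag2n hai s hs0 with hd
  have hab0 : e (k := k) b ⬝ᵥ e a = 0 := e_dot_e hab.symm
  have e3 : d * tt (e a) (e b) * d⁻¹ = tt (e a) (s • e b) := by
    rw [tt_conj hab0]
    have e4 : d.1 *ᵥ e a = s • e a := by
      rw [hd, SpecialLinearGroup.diag2n_coe]
      funext j
      simp only [mulVec_diagonal, Pi.smul_apply, smul_eq_mul, e, Pi.single_apply]
      by_cases hj : j = a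
      · subst hj
        simp
      · simp [hj]
    have e5 : e b ᵥ* (d⁻¹).1 = e b := by
      have e6 : e b ᵥ* d.1 = e b := by
        rw [hd, SpecialLinearGroup.diag2n_coe]
        funext j
        simp only [vecMul_diagonal, e, Pi.single_apply]
        by_cases hj : j = b
        · subst hj
          simp [hab.symm, hbi]
        · simp [hj]
      calc e b ᵥ* (d⁻¹).1 = (e b ᵥ* d.1) ᵥ* (d⁻¹).1 := by rw [e6]
        _ = e b := by rw [vecMul_vecMul, sl_mul_inv_coe, vecMul_one]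
    rw [e4, e5, tt_smul_move]
  refine ⟨x * d, ?_⟩
  have e7 : x * d * tt (e a) (e b) * (x * d)⁻¹ = x * (d * tt (e a) (e b) * d⁻¹) * x⁻¹ := by
    group
  have hsb : (s • e (k := k) b) ⬝ᵥ e a = 0 := by rw [smul_dotProduct, hab0, smul_zero]
  rw [e7, e3, tt_conj hsb, smul_vecMul, e1, e2, smul_smul, tt_smul_move, smul_smul]
  have e8 : l * (s * m) = 1 := by
    rw [hs]
    field_simp
  rw [e8, one_smul]

/-- The hom from the additive group of covectors vanishing at `v`. -/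
def Ann (k : Type*) [Field k] {N : ℕ} (v : Fin N → k) : Submodule k (Fin N → k) where
  carrier := {φ | φ ⬝ᵥ v = 0}
  add_mem' := by
    intro a b ha hb
    change (a + b) ⬝ᵥ v = 0
    rw [add_dotProduct, ha, hb, add_zero]
  zero_mem' := zero_dotProduct _
  smul_mem' := by
    intro c x hx
    change (c • x) ⬝ᵥ v = 0
    rw [smul_dotProduct, hx, smul_zero]

@[simp] lemma mem_Ann {v φ : Fin N → k} : φ ∈ Ann k v ↔ φ ⬝ᵥ v = 0 := Iff.rfl

/-- The root group as a homomorphic image. -/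
noncomputable def tHom (v : Fin N → k) : Multiplicative (Ann k v) →* SpecialLinearGroup (Fin N) k where
  toFun φ := tt v (Multiplicative.toAdd φ).1
  map_one' := tt_zero_right v
  map_mul' a b := by
    rw [toAdd_mul]
    exact (tt_mul_same (Multiplicative.toAdd a).2 (Multiplicative.toAdd b).2).symm

lemma tHom_apply (v : Fin N → k) (φ : Multiplicative (Ann k v)) :
    tHom v φ = tt v (Multiplicative.toAdd φ).1 := rfl

lemma finrank_Ann {v : Fin N → k} (hv : v ≠ 0) : Module.finrank k (Ann k v) + 1 = N := by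
  let f : (Fin N → k) →ₗ[k] k :=
    { toFun := fun φ => φ ⬝ᵥ v
      map_add' := fun a b => add_dotProduct _ _ _
      map_smul' := fun c a => by simp [smul_dotProduct] }
  have hker : LinearMap.ker f = Ann k v := by
    ext φ
    simp [f]
  obtain ⟨i, hi⟩ := exists_ne_of_ne_zero hv
  have hsurj : Function.Surjective f := by
    intro s
    refine ⟨(s * (v i)⁻¹) • e i, ?_⟩
    change ((s * (v i)⁻¹) • e i) ⬝ᵥ v = s
    rw [smul_dotProduct, e_dot, smul_eq_mul, mul_assoc, inv_mul_cancel₀ hi, mul_one]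
  have h1 := LinearMap.finrank_range_add_finrank_ker f
  rw [LinearMap.range_eq_top.2 hsurj, finrank_top, hker] at h1
  simp only [Module.finrank_self, Module.finrank_fin_fun] at h1
  omega

lemma card_Ann [Fintype k] {v : Fin N → k} (hv : v ≠ 0) :
    Nat.card (Ann k v) = Fintype.card k ^ (N - 1) := by
  classical
  have h2 : Module.finrank k (Ann k v) = N - 1 := by
    have := finrank_Ann hv
    omega
  rw [Nat.card_eq_fintype_card, Module.card_eq_pow_finrank (K := k) (V := Ann k v), h2]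

end Cfsg.Agent.Lib.Classical.MinIndex
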