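import Cfsg.Agent.Lib.Classical.MinIndex.Struct
import Cfsg.Agent.Lib.Classical.MinIndex.Compl

/-!
The minimal index of a proper subgroup of `SL_N(k)`, `N ≥ 3`.
-/

set_option autoImplicit false
set_option linter.unusedSectionVars false
set_option linter.unusedSimpArgs false
set_option linter.style.haveILetI false
set_option linter.unusedVariables false

open Matrix

namespace Cfsg.Agent.Lib.Classical.MinIndex

open Cfsg.Agent.Lib.Classical.TransvRoot Cfsg.Agent.Lib.Classical.TransvSL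

/-- The geometric sum. -/
def Ns (q K : ℕ) : ℕ := ∑ i ∈ Finset.range K, q ^ i

lemma Ns_succ (q K : ℕ) : Ns q (K + 1) = Ns q K + q ^ K := Finset.sum_range_succ _ _

lemma Ns_mul {q : ℕ} (hq : 2 ≤ q) (K : ℕ) : (q - 1) * Ns q K + 1 = q ^ K := by
  obtain ⟨p, rfl⟩ : ∃ p, q = p + 1 := ⟨q - 1, by omega⟩
  simp only [Nat.add_sub_cancel]
  induction K with
  | zero => simp [Ns]
  | succ K ih =>
    rw [Ns_succ, mul_add, pow_succ]
    nlinarith

variable {k : Type*} [Field k] {N : ℕ}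

lemma top_of_tt {H : Subgroup (SpecialLinearGroup (Fin N) k)} (hN : 3 ≤ N)
    (h : ∀ c φ : Fin N → k, c ≠ 0 → φ ≠ 0 → φ ⬝ᵥ c = 0 → tt c φ ∈ H) : H = ⊤ := by
  haveI : Nontrivial (Fin N) := Fin.nontrivial_iff_two_le.2 (by omega)
  rw [eq_top_iff, ← Cfsg.Agent.Lib.Classical.Transvections.closure_transvections_eq_top,
    Subgroup.closure_le]
  rintro _ ⟨i, j, hij, a, rfl⟩
  by_cases ha : a = 0
  · subst ha
    have : SpecialLinearGroup.transvection hij (0 : k) = 1 := by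
      apply Subtype.ext
      simp
    change _ ∈ H
    rw [this]
    exact H.one_mem
  · have h1 : SpecialLinearGroup.transvection hij a = tt (a • e i) (e j) := by
      apply tt_ext
      have hd : e (k := k) j ⬝ᵥ (a • e i) = 0 := by
        rw [dotProduct_smul, e_dot_e hij.symm, smul_zero]
      rw [tt_val hd, E_smul_left, E_single, SpecialLinearGroup.transvection_coe]
    change _ ∈ H
    rw [h1]
    refine h _ _ (smul_ne_zero ha (e_ne_zero i)) (e_ne_zero j) ?_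
    rw [dotProduct_smul, e_dot_e hij.symm, smul_zero]

section Quot

variable {H : Subgroup (SpecialLinearGroup (Fin N) k)}

lemma smul_coe_eq (g x y : SpecialLinearGroup (Fin N) k) :
    g • (x : SpecialLinearGroup (Fin N) k ⧸ H) = (y : SpecialLinearGroup (Fin N) k ⧸ H) ↔
      y⁻¹ * (g * x) ∈ H := by
  rw [MulAction.Quotient.smul_coe, smul_eq_mul, eq_comm, QuotientGroup.eq]

lemma smul_base_eq (g : SpecialLinearGroup (Fin N) k) :
    g • ((1 : SpecialLinearGroup (Fin N) k) : SpecialLinearGroup (Fin N) k ⧸ H) =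
      ((1 : SpecialLinearGroup (Fin N) k) : SpecialLinearGroup (Fin N) k ⧸ H) ↔ g ∈ H := by
  rw [smul_coe_eq, inv_one, one_mul, mul_one]

/-- The number of fixed points is a conjugacy invariant. -/
lemma card_fixedBy_conj {Ω : Type*} [MulAction (SpecialLinearGroup (Fin N) k) Ω]
    (g t : SpecialLinearGroup (Fin N) k) :
    Nat.card (MulAction.fixedBy Ω (g * t * g⁻¹)) = Nat.card (MulAction.fixedBy Ω t) := by
  symm
  refine Nat.card_congr ⟨fun x => ⟨g • x.1, ?_⟩, fun x => ⟨g⁻¹ • x.1, ?_⟩, ?_, ?_⟩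
  · rw [MulAction.mem_fixedBy, ← mul_smul]
    have e1 : g * t * g⁻¹ * g = g * t := by group
    rw [e1, mul_smul, x.2]
  · rw [MulAction.mem_fixedBy, ← mul_smul]
    have e1 : t * g⁻¹ = g⁻¹ * (g * t * g⁻¹) := by group
    rw [e1, mul_smul, x.2]
  · intro x
    apply Subtype.ext
    simp
  · intro x
    apply Subtype.ext
    simp

variable [Fintype k]

local notation "qq" => Fintype.card k
local notation "GG" => SpecialLinearGroup (Fin N) k

/-- The numbers for a subgroup of small index. -/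
theorem exists_setup [Fintype (GG ⧸ H)] (hN : 3 ≤ N) (hH : H ≠ ⊤) (hlt : H.index < Ns qq N) :
    ∃ c, Setup k N (GG ⧸ H) c ∧ qq * (c + 1) ≤ c + qq ^ (N - 1) := by
  have hq2 : 2 ≤ qq := Fintype.one_lt_card
  let a : Fin N := ⟨0, by omega⟩
  let b : Fin N := ⟨1, by omega⟩
  let i : Fin N := ⟨2, by omega⟩
  have hab : a ≠ b := by simp [a, b, Fin.ext_iff]
  have hai : a ≠ i := by simp [a, i, Fin.ext_iff]
  have hbi : b ≠ i := by simp [b, i, Fin.ext_iff]
  obtain ⟨c, hc⟩ : ∃ c, c = Nat.card (MulAction.fixedBy (GG ⧸ H) (tt (e a) (e (k := k) b))) := ⟨_, rfl⟩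
  have hfix : ∀ {c' φ : Fin N → k}, c' ≠ 0 → φ ≠ 0 → φ ⬝ᵥ c' = 0 →
      Nat.card (MulAction.fixedBy (GG ⧸ H) (tt c' φ)) = c := by
    intro c' φ h1 h2 h3
    obtain ⟨g, hg⟩ := exists_conj_base hab hai hbi h1 h2 h3
    rw [← hg, card_fixedBy_conj, hc]
  have hm : Fintype.card (GG ⧸ H) = H.index := by
    rw [Subgroup.index, Nat.card_eq_fintype_card]
  have hcm : c < Fintype.card (GG ⧸ H) := by
    have hle : c ≤ Fintype.card (GG ⧸ H) := by
      rw [hc, ← Nat.card_eq_fintype_card]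
      exact Nat.card_le_card_of_injective _ Subtype.val_injective
    refine lt_of_le_of_ne hle ?_
    intro heq
    apply hH
    refine top_of_tt hN fun c' φ h1 h2 h3 => ?_
    have e1 := hfix h1 h2 h3
    rw [heq, ← Nat.card_eq_fintype_card] at e1
    have e2 : MulAction.fixedBy (GG ⧸ H) (tt c' φ) = Set.univ :=
      Set.eq_univ_of_forall (fun x => by
        by_contra hx
        have h4 : Nat.card (MulAction.fixedBy (GG ⧸ H) (tt c' φ)) < Nat.card (GG ⧸ H) := by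
          have := Set.ncard_lt_card (s := MulAction.fixedBy (GG ⧸ H) (tt c' φ))
            (fun h5 => hx (h5 ▸ Set.mem_univ x))
          exact this
        omega)
    have e3 : ((1 : GG) : GG ⧸ H) ∈ MulAction.fixedBy (GG ⧸ H) (tt c' φ) := by
      rw [e2]
      trivial
    exact (smul_base_eq _).1 e3
  have hNs := Ns_mul hq2 (N - 1)
  have hNs2 : Ns qq N = Ns qq (N - 1) + qq ^ (N - 1) := by
    have e1 : N = (N - 1) + 1 := by omega
    nth_rewrite 1 [e1]
    exact Ns_succ _ _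
  have hb1 : Ns qq (N - 1) + 1 ≤ qq ^ (N - 1) := by
    have h1 : 1 ≤ qq - 1 := by omega
    have h2 : Ns qq (N - 1) ≤ (qq - 1) * Ns qq (N - 1) := Nat.le_mul_of_pos_left _ (by omega)
    omega
  have hzero : e (k := k) a ≠ 0 := e_ne_zero a
  have hcard : Fintype.card (GG ⧸ H) = c + qq ^ (N - 1) := by
    letI := actU (Ω := GG ⧸ H) (e (k := k) a)
    have hC := fixC_actU' c hfix hzero
    have h1 := card_eq_add hC hcm (by
      rw [card_U _ hzero, hm]
      omega)
    rwa [card_U _ hzero] at h1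
  refine ⟨c, ⟨hfix, hcard⟩, ?_⟩
  -- the bound
  have h1 : c + 1 ≤ Ns qq (N - 1) := by
    omega
  have h2 : (qq - 1) * (c + 1) ≤ (qq - 1) * Ns qq (N - 1) := Nat.mul_le_mul_left _ h1
  obtain ⟨p, hp⟩ : ∃ p, qq = p + 1 := ⟨qq - 1, by omega⟩
  generalize qq ^ (N - 1) = B at *
  rw [hp] at h2 hNs ⊢
  simp only [Nat.add_sub_cancel] at h2 hNs
  nlinarith

/-- The dichotomy for a root group. -/
theorem dichotomy_of_index (hN : 3 ≤ N) (hH : H ≠ ⊤) (hlt : H.index < Ns qq N) {v : Fin N → k}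
    (hv : v ≠ 0) :
    (∀ φ : Fin N → k, φ ⬝ᵥ v = 0 → tt v φ ∈ H → φ = 0) ∨
      (∀ φ : Fin N → k, φ ⬝ᵥ v = 0 → tt v φ ∈ H) := by
  classical
  letI : Fintype (GG ⧸ H) := Fintype.ofFinite _
  obtain ⟨c, S, hbd⟩ := exists_setup hN hH hlt
  set ω₀ : GG ⧸ H := ((1 : GG) : GG ⧸ H) with hω₀
  have h1 : ∃ v₀ : Fin N → k, v₀ ≠ 0 ∧ ∃ ω₁ : GG ⧸ H, ∀ φ ∈ Wm v₀ ω₁, φ = 0 := by
    by_contra hcon
    push Not at hcon
    exact S.no_caseB hN hbd ω₀ hcon
  obtain ⟨v₀, hv₀, ω₁, hω₁⟩ := h1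
  obtain ⟨ω₂, hω₂⟩ := regular_transport hv₀ hv hω₁
  rcases S.dichotomy hv hω₂ ω₀ with h | h
  · exact Or.inl fun φ hφ hm => h φ ⟨hφ, (smul_base_eq _).2 hm⟩
  · exact Or.inr fun φ hφ => (smul_base_eq _).1 (h φ hφ).2

/-- The existence of the complement property. -/
theorem exists_of_no_tt (hN : 3 ≤ N) (hH : H ≠ ⊤) (hlt : H.index < Ns qq N)
    (hno : ∀ c φ : Fin N → k, c ≠ 0 → φ ≠ 0 → φ ⬝ᵥ c = 0 → tt c φ ∉ H) {v : Fin N → k} (hv : v ≠ 0)
    (x : GG) : ∃ φ : Fin N → k, φ ⬝ᵥ v = 0 ∧ tt v φ * x ∈ H := by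
  classical
  letI : Fintype (GG ⧸ H) := Fintype.ofFinite _
  obtain ⟨c, S, hbd⟩ := exists_setup hN hH hlt
  by_contra hcon
  push Not at hcon
  have hne : ∀ φ : Fin N → k, φ ⬝ᵥ v = 0 →
      tt v φ • ((x : GG) : GG ⧸ H) ≠ ((1 : GG) : GG ⧸ H) := by
    intro φ hφ e1
    rw [smul_coe_eq, inv_one, one_mul] at e1
    exact hcon φ hφ e1
  obtain ⟨ρ, hρ, hρ0⟩ := exists_Ann_off_line hN hv (0 : Fin N → k)
  obtain ⟨φ, hφ, φ', hφ', e1⟩ := S.pair hv hne hρ
  -- both are zero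
  have h1 : φ' = 0 := by
    by_contra h2
    exact hno v φ' hv h2 hφ'.1 ((smul_base_eq _).1 hφ'.2)
  have h3 : φ = 0 := by
    by_contra h2
    have h4 := hφ.2
    rw [smul_coe_eq] at h4
    have e2 : x⁻¹ * (tt v φ * x) = tt ((x⁻¹).1 *ᵥ v) (φ ᵥ* x.1) := by
      have := tt_conj hφ.1 x⁻¹
      rw [inv_inv] at this
      rw [← mul_assoc]
      exact this
    rw [e2] at h4
    refine hno _ _ (mulVec_ne_zero _ hv) (vecMul_ne_zero _ h2) ?_ h4
    rw [← dotProduct_mulVec, mulVec_mulVec, sl_mul_inv_coe, one_mulVec]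
    exact hφ.1
  apply hρ0 0
  rw [e1, h1, h3, add_zero, zero_smul]

end Quot

section Dual

/-- The inverse transpose automorphism. -/
noncomputable def dualHom : SpecialLinearGroup (Fin N) k →* SpecialLinearGroup (Fin N) k where
  toFun g := ⟨(g⁻¹).1ᵀ, by rw [det_transpose]; exact (g⁻¹).2⟩
  map_one' := by
    apply Subtype.ext
    simp
  map_mul' a b := by
    apply Subtype.ext
    change ((a * b)⁻¹).1ᵀ = (a⁻¹).1ᵀ * (b⁻¹).1ᵀ
    rw [_root_.mul_inv_rev, ← transpose_mul]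
    rfl

lemma dualHom_val (g : SpecialLinearGroup (Fin N) k) : (dualHom g).1 = (g⁻¹).1ᵀ := rfl

lemma dualHom_dualHom (g : SpecialLinearGroup (Fin N) k) : dualHom (dualHom g) = g := by
  apply Subtype.ext
  rw [dualHom_val, ← map_inv, dualHom_val, inv_inv, transpose_transpose]

lemma dualHom_surj : Function.Surjective (dualHom (k := k) (N := N)) :=
  fun g => ⟨dualHom g, dualHom_dualHom g⟩

lemma dualHom_tt {c φ : Fin N → k} (h : φ ⬝ᵥ c = 0) : dualHom (tt c φ) = tt (-φ) c := by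
  apply tt_ext
  have h1 : c ⬝ᵥ (-φ) = 0 := by rw [dotProduct_neg, dotProduct_comm, h, neg_zero]
  rw [dualHom_val, tt_inv h, tt_val (by rw [neg_dotProduct, h, neg_zero]), tt_val h1,
    transpose_add, transpose_one]
  congr 1
  ext i j
  simp [vecMulVec_apply, mul_comm]

end Dual

section Final

variable [Fintype k] {H : Subgroup (SpecialLinearGroup (Fin N) k)}

local notation "qq" => Fintype.card k
local notation "GG" => SpecialLinearGroup (Fin N) k

lemma exists_cov_two (hN : 3 ≤ N) {c c' : Fin N → k} (hc : c ≠ 0) (hc' : c' ≠ 0) :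
    ∃ ψ : Fin N → k, ψ ≠ 0 ∧ ψ ⬝ᵥ c = 0 ∧ ψ ⬝ᵥ c' = 0 := by
  by_contra hcon
  push Not at hcon
  have hd : Disjoint (Ann k c) (Ann k c') := by
    rw [Submodule.disjoint_def]
    intro ψ h1 h2
    by_contra h3
    exact hcon ψ h3 h1 h2
  have h1 := Submodule.finrank_add_finrank_le_of_disjoint hd
  have h2 := finrank_Ann hc
  have h3 := finrank_Ann hc'
  simp only [Module.finrank_fin_fun] at h1
  omega

/-- The lower bound for `SL_N(k)`. -/
theorem SL_lower (hN : 3 ≤ N) (hexc : ¬ (N = 4 ∧ qq = 2)) (hH : H ≠ ⊤) : Ns qq N ≤ H.index := by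
  by_contra hlt
  push Not at hlt
  set H' := H.comap (dualHom (k := k) (N := N)) with hH'
  have hi' : H'.index = H.index := Subgroup.index_comap_of_surjective _ dualHom_surj
  have hne' : H' ≠ ⊤ := by
    intro h1
    apply hH
    rw [eq_top_iff]
    intro g _
    have h2 : dualHom g ∈ H' := by
      rw [h1]
      trivial
    have h3 : dualHom (dualHom g) ∈ H := h2
    rwa [dualHom_dualHom] at h3
  have hD1 := fun {v : Fin N → k} (hv : v ≠ 0) => dichotomy_of_index hN hH hlt hv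
  have hD2 : ∀ {ψ : Fin N → k}, ψ ≠ 0 →
      (∀ d : Fin N → k, ψ ⬝ᵥ d = 0 → tt d ψ ∈ H → d = 0) ∨
      (∀ d : Fin N → k, ψ ⬝ᵥ d = 0 → tt d ψ ∈ H) := by
    intro ψ hψ
    have h1 : ∀ d : Fin N → k, ψ ⬝ᵥ d = 0 → (tt d ψ ∈ H ↔ tt ψ (-d) ∈ H') := by
      intro d hd
      have h2 : (-d) ⬝ᵥ ψ = 0 := by rw [neg_dotProduct, dotProduct_comm, hd, neg_zero]
      rw [hH', Subgroup.mem_comap, dualHom_tt h2, neg_neg]
    rcases dichotomy_of_index (H := H') hN hne' (by rwa [hi']) hψ with h | h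
    · left
      intro d hd hm
      have h2 : (-d) ⬝ᵥ ψ = 0 := by rw [neg_dotProduct, dotProduct_comm, hd, neg_zero]
      exact neg_eq_zero.1 (h _ h2 ((h1 d hd).1 hm))
    · right
      intro d hd
      have h2 : (-d) ⬝ᵥ ψ = 0 := by rw [neg_dotProduct, dotProduct_comm, hd, neg_zero]
      exact (h1 d hd).2 (h _ h2)
  have hno : ∀ c φ : Fin N → k, c ≠ 0 → φ ≠ 0 → φ ⬝ᵥ c = 0 → tt c φ ∉ H := by
    intro c φ hc hφ hd hm
    apply hH
    refine top_of_tt hN fun c' φ' hc' hφ' hd' => ?_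
    obtain ⟨ψ, hψ, h1, h2⟩ := exists_cov_two hN hc hc'
    have s1 : tt c ψ ∈ H := by
      rcases hD1 hc with h | h
      · exact absurd (h φ hd hm) hφ
      · exact h ψ h1
    have s2 : tt c' ψ ∈ H := by
      rcases hD2 hψ with h | h
      · exact absurd (h c h1 s1) hc
      · exact h c' h2
    rcases hD1 hc' with h | h
    · exact absurd (h ψ h2 s2) hψ
    · exact h φ' hd'
  refine no_compl hN hexc (H := H) ⟨?_, hno⟩
  exact fun x => exists_of_no_tt hN hH hlt hno (e_ne_zero _) x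

end Final

end Cfsg.Agent.Lib.Classical.MinIndex
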