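import Cfsg.Agent.Lib.Classical.MinIndex.Count
import Cfsg.Agent.Lib.Classical.MinIndex.CaseB

/-!
The stabilizers in a root group `U_v` on a `SL_N(k)`-set of size `c + |U_v|`.
-/

set_option autoImplicit false
set_option linter.unusedSectionVars false
set_option linter.unusedSimpArgs false
set_option linter.style.haveILetI false
set_option linter.unusedVariables false

open Matrix

namespace Cfsg.Agent.Lib.Classical.MinIndex

open Cfsg.Agent.Lib.Classical.TransvRoot Cfsg.Agent.Lib.Classical.TransvSL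

variable {k : Type*} [Field k] [Fintype k] {N : ℕ} {Ω : Type*}
  [MulAction (SpecialLinearGroup (Fin N) k) Ω] [Fintype Ω]

/-- The numbers of the action. -/
structure Setup (k : Type*) [Field k] [Fintype k] (N : ℕ) (Ω : Type*)
    [MulAction (SpecialLinearGroup (Fin N) k) Ω] [Fintype Ω] (c : ℕ) : Prop where
  fix : ∀ {c' φ : Fin N → k}, c' ≠ 0 → φ ≠ 0 → φ ⬝ᵥ c' = 0 →
    Nat.card (MulAction.fixedBy Ω (tt c' φ)) = c
  card : Fintype.card Ω = c + Fintype.card k ^ (N - 1)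

/-- The action of the additive group of covectors. -/
noncomputable abbrev actU (v : Fin N → k) : MulAction (Multiplicative (Ann k v)) Ω :=
  MulAction.compHom Ω (tHom v)

/-- The set of covectors whose element fixes `ω`. -/
def Wm (v : Fin N → k) (ω : Ω) : Set (Fin N → k) :=
  {φ | φ ⬝ᵥ v = 0 ∧ tt v φ • ω = ω}

lemma mem_Wm {v φ : Fin N → k} {ω : Ω} : φ ∈ Wm v ω ↔ φ ⬝ᵥ v = 0 ∧ tt v φ • ω = ω := Iff.rfl

lemma Wm_zero (v : Fin N → k) (ω : Ω) : (0 : Fin N → k) ∈ Wm v ω :=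
  ⟨zero_dotProduct _, by rw [tt_zero_right, one_smul]⟩

lemma Wm_add {v φ ψ : Fin N → k} {ω : Ω} (h : φ ∈ Wm v ω) (h' : ψ ∈ Wm v ω) : φ + ψ ∈ Wm v ω :=
  ⟨by rw [add_dotProduct, h.1, h'.1, add_zero], by
    rw [← tt_mul_same h.1 h'.1, mul_smul, h'.2, h.2]⟩

lemma Wm_neg {v φ : Fin N → k} {ω : Ω} (h : φ ∈ Wm v ω) : -φ ∈ Wm v ω :=
  ⟨by rw [neg_dotProduct, h.1, neg_zero], by
    rw [← tt_inv h.1, inv_smul_eq_iff, h.2]⟩

lemma Wm_sub {v φ ψ : Fin N → k} {ω : Ω} (h : φ ∈ Wm v ω) (h' : ψ ∈ Wm v ω) : φ - ψ ∈ Wm v ω := by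
  rw [sub_eq_add_neg]
  exact Wm_add h (Wm_neg h')

/-- The invariance on an orbit. -/
lemma Wm_orbit {v φ φ₁ : Fin N → k} {ω : Ω} (h₁ : φ₁ ⬝ᵥ v = 0) (h : φ ∈ Wm v ω) :
    φ ∈ Wm v (tt v φ₁ • ω) := by
  refine ⟨h.1, ?_⟩
  have e : tt v φ * tt v φ₁ = tt v φ₁ * tt v φ := by
    rw [tt_mul_same h.1 h₁, tt_mul_same h₁ h.1, add_comm]
  rw [← mul_smul, e, mul_smul, h.2]

lemma Wm_orbit' {v φ φ₁ : Fin N → k} {ω : Ω} (h₁ : φ₁ ⬝ᵥ v = 0) (h : φ ∈ Wm v (tt v φ₁ • ω)) :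
    φ ∈ Wm v ω := by
  have h2 := Wm_orbit (φ₁ := -φ₁) (by rw [neg_dotProduct, h₁, neg_zero]) h
  have e : tt v (-φ₁) • tt v φ₁ • ω = ω := by
    rw [← tt_inv h₁, inv_smul_smul]
  rwa [e] at h2

/-- Conjugates by elements fixing `v`. -/
lemma Wm_conj {v φ : Fin N → k} {ω : Ω} (g : SpecialLinearGroup (Fin N) k) (hg : g.1 *ᵥ v = v)
    (h : φ ∈ Wm v ω) : φ ᵥ* (g⁻¹).1 ∈ Wm v (g • ω) := by
  have h1 : (φ ᵥ* (g⁻¹).1) ⬝ᵥ v = 0 := by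
    have := sl_dot_inv (c := v) (φ := φ) g
    rwa [hg, h.1] at this
  refine ⟨h1, ?_⟩
  have e := tt_conj h.1 g
  rw [hg] at e
  rw [← e]
  have e2 : (g * tt v φ * g⁻¹) • g • ω = g • tt v φ • ω := by
    rw [← mul_smul, ← mul_smul]
    congr 1
    group
  rw [e2, h.2]

section Trans

variable {v x ρ φ : Fin N → k} {ω : Ω}

lemma tt_fix_v (hv : ρ ⬝ᵥ v = 0) (hx : ρ ⬝ᵥ x = 0) : (tt x ρ).1 *ᵥ v = v := by
  rw [tt_mulVec hx, hv, zero_smul, add_zero]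

lemma Wm_trans (hv : ρ ⬝ᵥ v = 0) (hx : ρ ⬝ᵥ x = 0) (h : φ ∈ Wm v ω) :
    φ - (φ ⬝ᵥ x) • ρ ∈ Wm v (tt x ρ • ω) := by
  have := Wm_conj (tt x ρ) (tt_fix_v hv hx) h
  rwa [vecMul_tt_inv hx] at this

lemma Wm_trans_inv (hv : ρ ⬝ᵥ v = 0) (hx : ρ ⬝ᵥ x = 0) (h : φ ∈ Wm v (tt x ρ • ω)) :
    ∃ φ' ∈ Wm v ω, φ = φ' - (φ' ⬝ᵥ x) • ρ := by
  have h1 := Wm_conj (tt x ρ)⁻¹ (by
    have e : ((tt x ρ)⁻¹).1 *ᵥ v = ((tt x ρ)⁻¹).1 *ᵥ ((tt x ρ).1 *ᵥ v) := by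
      rw [tt_fix_v hv hx]
    rw [e, mulVec_mulVec, sl_inv_mul_coe, one_mulVec]) h
  rw [inv_smul_smul, inv_inv, vecMul_tt hx] at h1
  refine ⟨_, h1, ?_⟩
  rw [add_dotProduct, smul_dotProduct, hx, smul_zero, add_zero]
  abel

end Trans

omit [Fintype Ω] in
lemma fixC_actU' (c : ℕ) (S : ∀ {c' φ : Fin N → k}, c' ≠ 0 → φ ≠ 0 → φ ⬝ᵥ c' = 0 →
    Nat.card (MulAction.fixedBy Ω (tt c' φ)) = c) {v : Fin N → k} (hv : v ≠ 0) :
    @FixC (Multiplicative (Ann k v)) Ω _ (actU v) c := by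
  letI := actU (Ω := Ω) v
  intro u hu
  have e : MulAction.fixedBy Ω u = MulAction.fixedBy Ω (tHom v u) := rfl
  rw [e, tHom_apply]
  refine S hv ?_ (Multiplicative.toAdd u).2
  intro h0
  apply hu
  apply Multiplicative.toAdd.injective
  exact Subtype.ext h0

lemma fixC_actU (c : ℕ) (S : Setup k N Ω c) {v : Fin N → k} (hv : v ≠ 0) :
    @FixC (Multiplicative (Ann k v)) Ω _ (actU v) c :=
  fixC_actU' c S.fix hv

lemma card_U (v : Fin N → k) (hv : v ≠ 0) :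
    Nat.card (Multiplicative (Ann k v)) = Fintype.card k ^ (N - 1) := by
  rw [← card_Ann hv]
  exact Nat.card_congr Multiplicative.toAdd

/-- The second count, in terms of the covectors. -/
theorem Setup.pair {c : ℕ} (S : Setup k N Ω c) {v : Fin N → k} (hv : v ≠ 0) {ω ω' : Ω}
    (hne : ∀ φ : Fin N → k, φ ⬝ᵥ v = 0 → tt v φ • ω ≠ ω') {ψ : Fin N → k} (hψ : ψ ⬝ᵥ v = 0) :
    ∃ φ ∈ Wm v ω, ∃ φ' ∈ Wm v ω', ψ = φ + φ' := by
  letI := actU (Ω := Ω) v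
  have hc := fixC_actU c S hv
  have hm : Fintype.card Ω = c + Nat.card (Multiplicative (Ann k v)) := by
    rw [card_U v hv]
    exact S.card
  have hne' : ω' ∉ MulAction.orbit (Multiplicative (Ann k v)) ω := by
    rintro ⟨u, hu⟩
    exact hne _ (Multiplicative.toAdd u).2 hu
  have h1 := pair_sup hc hm hne'
  have h2 : Multiplicative.ofAdd (⟨ψ, hψ⟩ : Ann k v) ∈ (⊤ : Subgroup _) := trivial
  rw [← h1, Subgroup.mem_sup] at h2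
  obtain ⟨y, hy, z, hz, e⟩ := h2
  refine ⟨(Multiplicative.toAdd y).1, ⟨(Multiplicative.toAdd y).2, hy⟩, (Multiplicative.toAdd z).1,
    ⟨(Multiplicative.toAdd z).2, hz⟩, ?_⟩
  have := congrArg (fun u => (Multiplicative.toAdd u).1) e
  exact this.symm

/-- The covectors are spanned by the stabilizer and one more line. -/
def Span1 (v : Fin N → k) (ω : Ω) (ρ : Fin N → k) : Prop :=
  ∀ ψ : Fin N → k, ψ ⬝ᵥ v = 0 → ∃ s : k, ∃ φ ∈ Wm v ω, ψ = φ + s • ρ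

theorem Setup.span_of_move {c : ℕ} (S : Setup k N Ω c) {v x ρ φ₀ : Fin N → k} {ω : Ω} (hv : v ≠ 0)
    (hρv : ρ ⬝ᵥ v = 0) (hρx : ρ ⬝ᵥ x = 0) (hφ₀ : φ₀ ∈ Wm v ω)
    (hnot : φ₀ - (φ₀ ⬝ᵥ x) • ρ ∉ Wm v ω) : Span1 v ω ρ := by
  intro ψ hψ
  have hne : ∀ φ : Fin N → k, φ ⬝ᵥ v = 0 → tt v φ • ω ≠ tt x ρ • ω := by
    intro φ hφ e
    apply hnot
    have h1 := Wm_trans hρv hρx hφ₀
    rw [← e] at h1
    exact Wm_orbit' hφ h1
  obtain ⟨φ, hφ, φ', hφ', e⟩ := S.pair hv hne hψ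
  obtain ⟨φ'', hφ'', e'⟩ := Wm_trans_inv hρv hρx hφ'
  refine ⟨-(φ'' ⬝ᵥ x), φ + φ'', Wm_add hφ hφ'', ?_⟩
  rw [e, e', neg_smul]
  abel

lemma exists_vec_sep {ρ φ₀ : Fin N → k} (hρ : ρ ≠ 0) (h : ∀ t : k, φ₀ ≠ t • ρ) (s : k) :
    ∃ x, ρ ⬝ᵥ x = 0 ∧ φ₀ ⬝ᵥ x = s := by
  obtain ⟨y, hy, hy'⟩ := exists_cov_sep hρ h
  refine ⟨(s * (y ⬝ᵥ φ₀)⁻¹) • y, ?_, ?_⟩
  · rw [dotProduct_smul, dotProduct_comm ρ, hy, smul_zero]
  · rw [dotProduct_smul, dotProduct_comm φ₀, smul_eq_mul, mul_assoc, inv_mul_cancel₀ hy', mul_one]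

lemma exists_Ann_off_line (hN : 3 ≤ N) {v : Fin N → k} (hv : v ≠ 0) (φ₀ : Fin N → k) :
    ∃ ρ, ρ ⬝ᵥ v = 0 ∧ ∀ t : k, ρ ≠ t • φ₀ := by
  by_contra hcon
  push Not at hcon
  have hle : Ann k v ≤ Submodule.span k {φ₀} := by
    intro ρ hρ
    obtain ⟨t, ht⟩ := hcon ρ hρ
    rw [ht]
    exact Submodule.smul_mem _ _ (Submodule.mem_span_singleton_self φ₀)
  have h1 : Module.finrank k (Ann k v) ≤ 1 :=
    (Submodule.finrank_mono hle).trans (by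
      by_cases h0 : φ₀ = 0
      · subst h0
        rw [Submodule.span_zero_singleton, finrank_bot]
        exact zero_le_one
      · rw [finrank_span_singleton h0])
  have h2 := finrank_Ann hv
  omega

theorem Setup.exists_span {c : ℕ} (S : Setup k N Ω c) (hN : 3 ≤ N) {v φ₀ ρ₁ : Fin N → k} {ω : Ω}
    (hv : v ≠ 0) (hφ₀ : φ₀ ∈ Wm v ω) (h0 : φ₀ ≠ 0) (hρ₁ : ρ₁ ⬝ᵥ v = 0) (hρ₁' : ρ₁ ∉ Wm v ω) :
    ∃ ρ, ρ ⬝ᵥ v = 0 ∧ Span1 v ω ρ := by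
  have key : ∀ ρ : Fin N → k, ρ ⬝ᵥ v = 0 → ρ ∉ Wm v ω → (∀ t : k, ρ ≠ t • φ₀) →
      ∃ ρ, ρ ⬝ᵥ v = 0 ∧ Span1 v ω ρ := by
    intro ρ hρ hρ' ht
    have hρ0 : ρ ≠ 0 := by
      rintro rfl
      exact hρ' (Wm_zero v ω)
    have hsep : ∀ t : k, φ₀ ≠ t • ρ := by
      intro t e
      have ht0 : t ≠ 0 := by
        rintro rfl
        rw [zero_smul] at e
        exact h0 e
      apply ht t⁻¹
      rw [e, smul_smul, inv_mul_cancel₀ ht0, one_smul]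
    obtain ⟨x, hx, hx'⟩ := exists_vec_sep hρ0 hsep 1
    refine ⟨ρ, hρ, S.span_of_move hv hρ hx hφ₀ ?_⟩
    rw [hx', one_smul]
    intro h1
    apply hρ'
    have h2 := Wm_sub hφ₀ h1
    rwa [sub_sub_cancel] at h2
  by_cases h1 : ∀ t : k, ρ₁ ≠ t • φ₀
  · exact key ρ₁ hρ₁ hρ₁' h1
  · push Not at h1
    obtain ⟨s, hs⟩ := h1
    obtain ⟨ρ₂, hρ₂, hρ₂'⟩ := exists_Ann_off_line hN hv φ₀
    by_cases h2 : ρ₂ ∈ Wm v ω
    · refine key (ρ₁ + ρ₂) (by rw [add_dotProduct, hρ₁, hρ₂, add_zero]) ?_ ?_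
      · intro h3
        apply hρ₁'
        have h4 := Wm_sub h3 h2
        rwa [add_sub_cancel_right] at h4
      · intro t e
        apply hρ₂' (t - s)
        rw [sub_smul, ← e, hs]
        abel
    · exact key ρ₂ hρ₂ h2 hρ₂'

/-- The map of a spanning pair. -/
def spanMap {v : Fin N → k} {ω : Ω} {ρ : Fin N → k} (hρ : ρ ⬝ᵥ v = 0) :
    k × (Wm v ω) → Ann k v := fun p =>
  ⟨p.2.1 + p.1 • ρ, by
    change (p.2.1 + p.1 • ρ) ⬝ᵥ v = 0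
    rw [add_dotProduct, smul_dotProduct, hρ, p.2.2.1, smul_zero, add_zero]⟩

lemma spanMap_surj {v : Fin N → k} {ω : Ω} {ρ : Fin N → k} (hρ : ρ ⬝ᵥ v = 0) (h : Span1 v ω ρ) :
    Function.Surjective (spanMap (ω := ω) hρ) := by
  rintro ⟨ψ, hψ⟩
  obtain ⟨s, φ, hφ, e⟩ := h ψ hψ
  exact ⟨(s, ⟨φ, hφ⟩), Subtype.ext e.symm⟩

lemma card_le_of_span {v : Fin N → k} {ω : Ω} {ρ : Fin N → k} (hv : v ≠ 0) (hρ : ρ ⬝ᵥ v = 0)
    (h : Span1 v ω ρ) :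
    Fintype.card k ^ (N - 1) ≤ Fintype.card k * Nat.card (Wm v ω) := by
  have h1 := Nat.card_le_card_of_surjective _ (spanMap_surj hρ h)
  rwa [card_Ann hv, Nat.card_prod, Nat.card_eq_fintype_card] at h1

lemma inj_of_span {v : Fin N → k} {ω : Ω} {ρ : Fin N → k} (hv : v ≠ 0) (hρ : ρ ⬝ᵥ v = 0)
    (h : Span1 v ω ρ) (hcard : Fintype.card k * Nat.card (Wm v ω) = Fintype.card k ^ (N - 1))
    {s : k} (hs : s • ρ ∈ Wm v ω) : s = 0 := by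
  have h1 : Function.Bijective (spanMap (ω := ω) hρ) := by
    refine (spanMap_surj hρ h).bijective_of_nat_card_le ?_
    rw [card_Ann hv, Nat.card_prod, Nat.card_eq_fintype_card, hcard]
  have h2 : spanMap (ω := ω) hρ (s, ⟨0, Wm_zero v ω⟩) = spanMap hρ (0, ⟨s • ρ, hs⟩) := by
    apply Subtype.ext
    simp [spanMap]
  have h3 := h1.1 h2
  exact congrArg Prod.fst h3

omit [Fintype Ω] in
lemma card_stab_W (v : Fin N → k) (ω : Ω) :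
    Nat.card (@MulAction.stabilizer (Multiplicative (Ann k v)) Ω _ (actU v) ω) =
      Nat.card (Wm v ω) := by
  letI := actU (Ω := Ω) v
  refine Nat.card_congr ⟨fun u => ⟨(Multiplicative.toAdd u.1).1, (Multiplicative.toAdd u.1).2, u.2⟩,
    fun φ => ⟨Multiplicative.ofAdd ⟨φ.1, φ.2.1⟩, φ.2.2⟩, fun u => rfl, fun u => rfl⟩

/-- All the stabilizers have the least possible order. -/
theorem Setup.card_W_eq {c : ℕ} (S : Setup k N Ω c) {v : Fin N → k} (hv : v ≠ 0)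
    (hq : ∀ x : Ω, Fintype.card k ^ (N - 1) ≤ Fintype.card k * Nat.card (Wm v x))
    (hbd : Fintype.card k * (c + 1) ≤ c + Fintype.card k ^ (N - 1)) (x : Ω) :
    Fintype.card k * Nat.card (Wm v x) = Fintype.card k ^ (N - 1) := by
  letI := actU (Ω := Ω) v
  have hc := fixC_actU c S hv
  have hm : Fintype.card Ω = c + Nat.card (Multiplicative (Ann k v)) := by
    rw [card_U v hv]
    exact S.card
  have h1 := card_stab_eq (q := Fintype.card k) hc hm (by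
    intro y
    rw [card_U v hv, card_stab_W]
    exact hq y) (by rw [card_U v hv]; exact hbd) x
  rwa [card_U v hv, card_stab_W] at h1

/-- The structure of the stabilizers when there is no regular orbit. -/
theorem Setup.struct_B {c : ℕ} (S : Setup k N Ω c) (hN : 3 ≤ N) {v : Fin N → k} (hv : v ≠ 0)
    (hall : ∀ ω : Ω, ∃ φ ∈ Wm v ω, φ ≠ 0)
    (hbd : Fintype.card k * (c + 1) ≤ c + Fintype.card k ^ (N - 1)) (ω : Ω) :
    (∀ ρ ∈ Wm v ω, ∀ s : k, s • ρ ∈ Wm v ω) ∧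
      Fintype.card k * Nat.card (Wm v ω) = Fintype.card k ^ (N - 1) := by
  have hq2 : 2 ≤ Fintype.card k := Fintype.one_lt_card
  have hq : ∀ x : Ω, Fintype.card k ^ (N - 1) ≤ Fintype.card k * Nat.card (Wm v x) := by
    intro x
    obtain ⟨φ₀, hφ₀, h0⟩ := hall x
    by_cases hA : ∀ ρ : Fin N → k, ρ ⬝ᵥ v = 0 → ρ ∈ Wm v x
    · refine card_le_of_span (ρ := 0) hv (zero_dotProduct _) ?_
      intro ψ hψ
      exact ⟨0, ψ, hA ψ hψ, by simp⟩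
    · push Not at hA
      obtain ⟨ρ₁, hρ₁, hρ₁'⟩ := hA
      obtain ⟨ρ, hρ, hsp⟩ := S.exists_span hN hv hφ₀ h0 hρ₁ hρ₁'
      exact card_le_of_span hv hρ hsp
  have hcard := S.card_W_eq hv hq hbd
  refine ⟨?_, hcard ω⟩
  intro ρ hρ s
  by_cases hρ0 : ρ = 0
  · rw [hρ0, smul_zero]
    exact Wm_zero v ω
  have claim : ∀ x : Fin N → k, ρ ⬝ᵥ x = 0 → ∀ φ ∈ Wm v ω, (φ ⬝ᵥ x) • ρ ∈ Wm v ω := by
    intro x hx φ hφ
    by_contra hnot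
    have h1 : φ - (φ ⬝ᵥ x) • ρ ∉ Wm v ω := by
      intro h
      apply hnot
      have h2 := Wm_sub hφ h
      rwa [sub_sub_cancel] at h2
    have hsp := S.span_of_move hv hρ.1 hx hφ h1
    have h3 := inj_of_span hv hρ.1 hsp (hcard ω) (s := 1) (by rwa [one_smul])
    exact one_ne_zero h3
  by_cases h2 : ∃ φ ∈ Wm v ω, ∀ t : k, φ ≠ t • ρ
  · obtain ⟨φ, hφ, ht⟩ := h2
    obtain ⟨x, hx, hx'⟩ := exists_vec_sep hρ0 ht s
    have := claim x hx φ hφ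
    rwa [hx'] at this
  · push Not at h2
    choose! g hg using h2
    have hginj : Function.Injective (fun φ : Wm v ω => g φ.1) := by
      intro a b hab
      apply Subtype.ext
      rw [hg a.1 a.2, hg b.1 b.2]
      exact congrArg (· • ρ) hab
    have hle : Fintype.card k ≤ Nat.card (Wm v ω) := by
      have h3 : Fintype.card k * Fintype.card k ≤ Fintype.card k * Nat.card (Wm v ω) := by
        rw [hcard ω, ← pow_two]
        exact Nat.pow_le_pow_right (by omega) (by omega)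
      exact Nat.le_of_mul_le_mul_left h3 (by omega)
    have hbij := hginj.bijective_of_nat_card_le (by rwa [Nat.card_eq_fintype_card])
    obtain ⟨φ, hφ⟩ := hbij.2 s
    have h4 := hg φ.1 φ.2
    have h5 : g φ.1 = s := hφ
    rw [h5] at h4
    rw [← h4]
    exact φ.2

/-- There is always a regular orbit. -/
theorem Setup.no_caseB {c : ℕ} (S : Setup k N Ω c) (hN : 3 ≤ N)
    (hbd : Fintype.card k * (c + 1) ≤ c + Fintype.card k ^ (N - 1)) (ω₀ : Ω)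
    (hall : ∀ v : Fin N → k, v ≠ 0 → ∀ ω : Ω, ∃ φ ∈ Wm v ω, φ ≠ 0) : False := by
  have hq2 : 2 ≤ Fintype.card k := Fintype.one_lt_card
  have hex : ∀ v : Fin N → k, ∃ W : Submodule k (Fin N → k), v ≠ 0 → (∀ φ, φ ∈ W ↔ φ ∈ Wm v ω₀) := by
    intro v
    by_cases hv : v = 0
    · exact ⟨⊥, fun h => absurd hv h⟩
    · refine ⟨⟨⟨⟨Wm v ω₀, fun ha hb => Wm_add ha hb⟩, Wm_zero v ω₀⟩, ?_⟩, fun _ φ => Iff.rfl⟩
      intro s φ hφ
      exact (S.struct_B hN hv (hall v hv) hbd ω₀).1 φ hφ s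
  choose W hW using hex
  refine final_B hN W ?_ ?_ ?_
  · intro v hv φ hφ
    exact ((hW v hv φ).1 hφ).1
  · intro v hv
    have h1 := (S.struct_B hN hv (hall v hv) hbd ω₀).2
    have h2 : Nat.card (Wm v ω₀) = Nat.card (W v) :=
      Nat.card_congr (Equiv.subtypeEquivRight (fun φ => (hW v hv φ).symm))
    haveI := Fintype.ofFinite (W v)
    rw [h2, Nat.card_eq_fintype_card, Module.card_eq_pow_finrank (K := k) (V := W v), ← pow_succ'] at h1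
    have h3 := Nat.pow_right_injective hq2 h1
    omega
  · intro v v' hv hv' φ hφ ψ hψ hψv
    rw [hW v hv] at hφ ⊢
    rw [hW v' hv'] at hψ
    have hsm : ((φ ⬝ᵥ v') • ψ) ⬝ᵥ v = 0 := by rw [smul_dotProduct, hψv, smul_zero]
    refine ⟨hsm, ?_⟩
    rw [← tt_comm hφ.1 hψ.1 hψv, mul_smul, mul_smul, mul_smul, inv_smul_eq_iff.2 hψ.2.symm,
      inv_smul_eq_iff.2 hφ.2.symm, hψ.2, hφ.2]

/-- One regular orbit forces the others to be fixed points. -/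
theorem Setup.dichotomy {c : ℕ} (S : Setup k N Ω c) {v : Fin N → k} (hv : v ≠ 0) {ω₁ : Ω}
    (h1 : ∀ φ ∈ Wm v ω₁, φ = 0) (ω : Ω) :
    (∀ φ ∈ Wm v ω, φ = 0) ∨ (∀ φ : Fin N → k, φ ⬝ᵥ v = 0 → φ ∈ Wm v ω) := by
  by_cases h : ∃ φ₁ : Fin N → k, φ₁ ⬝ᵥ v = 0 ∧ tt v φ₁ • ω₁ = ω
  · obtain ⟨φ₁, hφ₁, rfl⟩ := h
    exact Or.inl fun φ hφ => h1 φ (Wm_orbit' hφ₁ hφ)
  · push Not at h
    refine Or.inr fun ψ hψ => ?_
    obtain ⟨φ, hφ, φ', hφ', e⟩ := S.pair hv h hψ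
    rw [e, h1 φ hφ, zero_add]
    exact hφ'

/-- The transport of a regular orbit. -/
lemma Wm_move {v₀ v φ : Fin N → k} {ω : Ω} (g : SpecialLinearGroup (Fin N) k) {l : k} (hl : l ≠ 0)
    (hg : g.1 *ᵥ v₀ = l • v) (h : φ ∈ Wm v (g • ω)) : l⁻¹ • (φ ᵥ* g.1) ∈ Wm v₀ ω := by
  have hdot : (φ ᵥ* g.1) ⬝ᵥ v₀ = l * (φ ⬝ᵥ v) := by
    rw [← dotProduct_mulVec, hg, dotProduct_smul, smul_eq_mul]
  have h0 : (φ ᵥ* g.1) ⬝ᵥ v₀ = 0 := by rw [hdot, h.1, mul_zero]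
  have e1 : (g⁻¹).1 *ᵥ v = l⁻¹ • v₀ := by
    have h2 : (g⁻¹).1 *ᵥ (g.1 *ᵥ v₀) = v₀ := by
      rw [mulVec_mulVec, sl_inv_mul_coe, one_mulVec]
    rw [hg, mulVec_smul] at h2
    rw [← h2, smul_smul, inv_mul_cancel₀ hl, one_smul]
  have e2 := tt_conj h.1 g⁻¹
  rw [e1, inv_inv, tt_smul_move] at e2
  refine ⟨by rw [smul_dotProduct, h0, smul_zero], ?_⟩
  rw [← e2, mul_smul, mul_smul, h.2, inv_smul_smul]

lemma exists_move_vec₂ {v₀ v : Fin N → k} (hv₀ : v₀ ≠ 0) (hv : v ≠ 0) :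
    ∃ (g : SpecialLinearGroup (Fin N) k) (l : k), l ≠ 0 ∧ g.1 *ᵥ v₀ = l • v := by
  have hNpos : 0 < N := by
    obtain ⟨i, -⟩ := exists_ne_of_ne_zero hv
    exact i.pos
  let a : Fin N := ⟨0, hNpos⟩
  obtain ⟨x, l, hl, e1⟩ := exists_move_vec hv₀ a
  obtain ⟨y, m, hm, e2⟩ := exists_move_vec hv a
  refine ⟨y * x⁻¹, m * l⁻¹, mul_ne_zero hm (inv_ne_zero hl), ?_⟩
  have e3 : (x⁻¹).1 *ᵥ v₀ = l⁻¹ • e a := by
    have h2 : (x⁻¹).1 *ᵥ (x.1 *ᵥ e a) = e a := by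
      rw [mulVec_mulVec, sl_inv_mul_coe, one_mulVec]
    rw [e1, mulVec_smul] at h2
    rw [← h2, smul_smul, inv_mul_cancel₀ hl, one_smul]
  have e4 : (y * x⁻¹).1 = y.1 * (x⁻¹).1 := rfl
  rw [e4, ← mulVec_mulVec, e3, mulVec_smul, e2, smul_smul, mul_comm]

/-- A regular orbit for one vector gives a regular orbit for any other. -/
lemma regular_transport {v₀ v : Fin N → k} (hv₀ : v₀ ≠ 0) (hv : v ≠ 0) {ω₁ : Ω}
    (h : ∀ φ ∈ Wm v₀ ω₁, φ = 0) : ∃ ω : Ω, ∀ φ ∈ Wm v ω, φ = 0 := by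
  obtain ⟨g, l, hl, hg⟩ := exists_move_vec₂ hv₀ hv
  refine ⟨g • ω₁, fun φ hφ => ?_⟩
  have h1 := h _ (Wm_move g hl hg hφ)
  have h2 : φ ᵥ* g.1 = 0 := (smul_eq_zero.1 h1).resolve_left (inv_ne_zero hl)
  have h3 : φ ᵥ* g.1 ᵥ* (g⁻¹).1 = φ := by
    rw [vecMul_vecMul, sl_mul_inv_coe, vecMul_one]
  rw [← h3, h2, zero_vecMul]

end Cfsg.Agent.Lib.Classical.MinIndex
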